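/-
`p`-stability of solvable groups for `p ≥ 5`, and Glauberman's `Z(L(S))` theorem for `p`-stable groups.
-/
import Cfsg.Agent.BG.I06

set_option autoImplicit false
set_option linter.unusedSectionVars false
set_option linter.unusedSimpArgs false

namespace CA.TG

open Subgroup Cfsg CA.FG CA.BG CA.BG.P06
open scoped commutatorElement

universe u v

variable {G : Type u} [Group G] [Finite G] {p : ℕ}

theorem eq_zero_of_twelve_smul {R : Type v} [Ring R] (hp : p.Prime) (h5 : 5 ≤ p) (hR : (p : R) = 0) {z : R}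
    (h1 : (12 : ℕ) • z = 0) : z = 0 := by
  have hc : Nat.Coprime 12 p := by
    have h2 : Nat.Coprime 2 p := (Nat.coprime_primes Nat.prime_two hp).2 (by omega)
    have h3 : Nat.Coprime 3 p := (Nat.coprime_primes Nat.prime_three hp).2 (by omega)
    exact Nat.Coprime.mul_left (Nat.Coprime.mul_left h2 h2) h3
  have h2 : p • z = 0 := by rw [nsmul_eq_mul, hR, zero_mul]
  exact AddMonoid.addOrderOf_eq_one_iff.1 (Nat.eq_one_of_dvd_coprimes hc
    (addOrderOf_dvd_of_nsmul_eq_zero h1) (addOrderOf_dvd_of_nsmul_eq_zero h2))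

theorem quad_ring {R : Type v} [Ring R] (hp : p.Prime) (h5 : 5 ≤ p) (hR : (p : R) = 0) {A B u w : R}
    (hA : A * A = 0) (hB : B * B = 0)
    (hu : u = (1 - A) * (1 + B)) (hw : w = (1 - A) * (1 - A) * ((1 + B) * (1 + B)))
    (h1 : u * u * A = A * (u * u)) (h2 : w * w * A = A * (w * w))
    (h3 : u * u * B = B * (u * u)) (h4 : w * w * B = B * (w * w)) : u ^ p = 1 := by
  have hA' : ∀ z, A * (A * z) = 0 := fun z => by rw [← mul_assoc, hA, zero_mul]
  have hB' : ∀ z, B * (B * z) = 0 := fun z => by rw [← mul_assoc, hB, zero_mul]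
  have hw' : w = (1 - (A + A)) * (1 + (B + B)) := by
    rw [hw]
    simp only [mul_add, add_mul, mul_sub, sub_mul, mul_one, one_mul, mul_assoc, hA', hB', hA, hB,
      mul_zero, zero_mul]
    abel
  have e1 : A * (u * u * A) = 0 := by rw [h1, hA']
  have e2 : A * (w * w * A) = 0 := by rw [h2, hA']
  have e3 : B * (u * u * B) = 0 := by rw [h3, hB']
  have e4 : B * (w * w * B) = 0 := by rw [h4, hB']
  have a0 : A * (B * A) = 0 := by
    refine eq_zero_of_twelve_smul hp h5 hR ?_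
    have : (12 : ℕ) • (A * (B * A)) = (8 : ℕ) • (A * (u * u * A)) - A * (w * w * A) := by
      rw [hu, hw']
      simp only [mul_add, add_mul, mul_sub, sub_mul, mul_one, one_mul, mul_assoc, hA', hB', hA, hB,
        mul_zero, zero_mul]
      abel
    rw [this, e1, e2, smul_zero, sub_zero]
  have b0 : B * (A * B) = 0 := by
    refine eq_zero_of_twelve_smul hp h5 hR ?_
    have : (12 : ℕ) • (B * (A * B)) = B * (w * w * B) - (8 : ℕ) • (B * (u * u * B)) := by
      rw [hu, hw']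
      simp only [mul_add, add_mul, mul_sub, sub_mul, mul_one, one_mul, mul_assoc, hA', hB', hA, hB,
        mul_zero, zero_mul]
      abel
    rw [this, e3, e4, smul_zero, sub_zero]
  have a0' : ∀ z, A * (B * (A * z)) = 0 := fun z => by
    rw [← mul_assoc B, ← mul_assoc A, a0, zero_mul]
  have b0' : ∀ z, B * (A * (B * z)) = 0 := fun z => by
    rw [← mul_assoc A, ← mul_assoc B, b0, zero_mul]
  have hN : (u - 1) ^ 3 = 0 := by
    rw [hu, pow_succ, pow_two]
    simp only [mul_add, add_mul, mul_sub, sub_mul, mul_one, one_mul, mul_assoc, hA', hB', hA, hB,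
      mul_zero, zero_mul, a0, b0, a0', b0']
    abel
  obtain ⟨r, hr⟩ := (Commute.one_right (u - 1)).exists_add_pow_prime_eq hp
  rw [sub_add_cancel, hR, pow_eq_zero_of_le (by omega : 3 ≤ p) hN] at hr
  simpa using hr

/-- A quadratic element of a faithful representation in characteristic `p ≥ 5` centralizes every
`2`-subgroup that it normalizes. -/
theorem quad_cent_two {R : Type v} [Ring R] (hp : p.Prime) (h5 : 5 ≤ p) (hR : (p : R) = 0)
    (ρ : G →* R) (inj : Function.Injective ρ) {x : G} (hx : (ρ x - 1) * (ρ x - 1) = 0)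
    {Q : Subgroup G} (pQ : IsPGrp 2 Q) (nQ : x ∈ 𝒩(Q)) : x ∈ 𝒞(Q) := by
  induction hn : Nat.card Q using Nat.strong_induction_on generalizing Q with
  | _ n ih =>
  subst hn
  by_cases h0 : Q = ⊥
  · rw [h0, cent_bot]; trivial
  have hΦ : x ∈ 𝒞(frattiniOf Q) := ih _ (card_lt_of_lt (Phi_proper h0)) (pQ.of_le (Phi_sub Q))
    (norm_Phi (zpowers_le.2 nQ) (mem_zpowers x)) rfl
  intro g hg
  have hy : g * x * g⁻¹ ∈ 𝒞(frattiniOf Q) :=
    conj_mem_of_mem_norm (norm_cent (Phi_normal Q).2 hg) hΦ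
  have hinv : ∀ z : G, (ρ z - 1) * (ρ z - 1) = 0 → ρ z⁻¹ = 1 - (ρ z - 1) := by
    intro z hz
    have h5 : ρ z⁻¹ * ρ z = 1 := by rw [← map_mul, inv_mul_cancel, map_one]
    have h6 : ρ z * (1 - (ρ z - 1)) = 1 := by
      calc ρ z * (1 - (ρ z - 1)) = 1 - (ρ z - 1) * (ρ z - 1) := by noncomm_ring
        _ = 1 := by rw [hz, sub_zero]
    exact left_inv_eq_right_inv h5 h6
  have hB : (ρ (g * x * g⁻¹) - 1) * (ρ (g * x * g⁻¹) - 1) = 0 := by
    have e1 : ρ g * ρ g⁻¹ = 1 := by rw [← map_mul, mul_inv_cancel, map_one]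
    have e2 : ρ g⁻¹ * ρ g = 1 := by rw [← map_mul, inv_mul_cancel, map_one]
    have e : ρ (g * x * g⁻¹) - 1 = ρ g * (ρ x - 1) * ρ g⁻¹ := by
      rw [map_mul, map_mul, mul_sub, sub_mul, mul_one, e1]
    rw [e]
    calc ρ g * (ρ x - 1) * ρ g⁻¹ * (ρ g * (ρ x - 1) * ρ g⁻¹)
        = ρ g * ((ρ x - 1) * (ρ g⁻¹ * ρ g) * (ρ x - 1)) * ρ g⁻¹ := by noncomm_ring
      _ = 0 := by rw [e2, mul_one, hx, mul_zero, zero_mul]
  have hu : x⁻¹ * (g * x * g⁻¹) ∈ Q := by
    have := mul_mem (conj_mem_of_mem_norm' nQ hg) (inv_mem hg)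
    simpa only [mul_assoc] using this
  have hw : x⁻¹ * x⁻¹ * ((g * x * g⁻¹) * (g * x * g⁻¹)) ∈ Q := by
    have := mul_mem (conj_mem_of_mem_norm' (mul_mem nQ nQ) hg) (inv_mem hg)
    convert this using 1
    group
  have hc : ∀ u ∈ Q, ∀ z ∈ 𝒞(frattiniOf Q), ρ u * ρ u * (ρ z - 1) = (ρ z - 1) * (ρ u * ρ u) := by
    intro u hu z hz
    have := hz _ (pow_mem_Phi pQ hu)
    rw [mul_sub, sub_mul, mul_one, one_mul, ← map_mul, ← map_mul, ← map_mul, ← pow_two, this]
  have h := quad_ring hp h5 hR hx hB (u := ρ (x⁻¹ * (g * x * g⁻¹)))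
    (w := ρ (x⁻¹ * x⁻¹ * ((g * x * g⁻¹) * (g * x * g⁻¹))))
    (by rw [map_mul ρ x⁻¹, hinv x hx, add_sub_cancel])
    (by rw [map_mul ρ (x⁻¹ * x⁻¹), map_mul ρ x⁻¹, map_mul ρ (g * x * g⁻¹), hinv x hx, add_sub_cancel])
    (hc _ hu _ hΦ) (hc _ hw _ hΦ) (hc _ hu _ hy) (hc _ hw _ hy)
  rw [← map_pow, ← map_one ρ] at h
  have h1 : x⁻¹ * (g * x * g⁻¹) = 1 :=
    (pElt_of_pow_eq_one hp (inj h)).eq_one ((pQ.piGrp (by simp; omega)).piElt hu)
  rw [inv_mul_eq_one] at h1
  conv_rhs => rw [h1]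
  rw [inv_mul_cancel_right]

open scoped IsMulCommutative in
/-- A solvable group acting faithfully on an elementary abelian `p`-group, `p ≥ 5`, with `O_p = 1` has no
quadratic elements. -/
theorem quad_faithful (hp : p.Prime) (h5 : 5 ≤ p) {E M : Subgroup G} {x : G}
    (abE : IsElementaryAbelian p E) (nE : M ≤ 𝒩(E)) (hC : M ⊓ 𝒞(E) = ⊥) (solM : Group.IsSolvable M)
    (hO : pCoreOf p M = ⊥) (hxM : x ∈ M) (px : IsPiElt {p} x)
    (hx : ⁅⁅E, zpowers x⁆, zpowers x⁆ = ⊥) : x = 1 := by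
  have cE := abE.1
  have pE := abelem_pGrp hp abE
  have hcent : ∀ r, r.Prime → x ∈ 𝒞(pCoreOf r M) := by
    intro r hr
    have nO : x ∈ 𝒩(pCoreOf r M) := pcore_norm _ M hxM
    have sO : pCoreOf r M ≤ M := pcore_le _ M
    by_cases hrp : r = p
    · rw [hrp, hO, cent_bot]; trivial
    by_cases hr2 : r = 2
    · let f := E.normalizerMonoidHom
      let ρ : MulAut E →* AddMonoid.End (Additive E) :=
        { toFun := fun a => MonoidHom.toAdditive a.toMonoidHom
          map_one' := rfl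
          map_mul' := fun a b => rfl }
      have inj : Function.Injective ρ := fun a b h => MulEquiv.ext fun v =>
        congrArg Additive.toMul (DFunLike.congr_fun h (Additive.ofMul v))
      have inj' : Function.Injective (f.comp (inclusion nE)) := by
        rw [injective_iff_map_eq_one]
        intro a ha
        have h1 : inclusion nE a ∈ f.ker := ha
        rw [normalizerMonoidHom_ker] at h1
        have h2 : (a : G) ∈ M ⊓ 𝒞(E) := ⟨a.2, h1⟩
        rw [hC] at h2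
        exact Subtype.ext h2
      have hq : (ρ (f ⟨x, nE hxM⟩) - 1) * (ρ (f ⟨x, nE hxM⟩) - 1) = 0 := by
        refine AddMonoidHom.ext fun v => ?_
        set w := (ρ (f ⟨x, nE hxM⟩) - 1) v with hw
        have h1 : ((w.toMul : E) : G) ∈ ⁅E, zpowers x⁆ := by
          rw [commutator_comm]
          have := commutator_mem_commutator (mem_zpowers x) v.toMul.2
          rw [commutatorElement_def] at this
          convert this using 1
          change x * v.toMul * x⁻¹ / v.toMul = _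
          rw [div_eq_mul_inv]
        change ρ (f ⟨x, nE hxM⟩) w - w = 0
        rw [sub_eq_zero]
        refine Additive.toMul.injective (Subtype.ext ?_)
        change x * w.toMul * x⁻¹ = w.toMul
        rw [← comm_of_le_cent (comm_eq_bot_iff.1 hx) h1 (mem_zpowers _), mul_inv_cancel_right]
      have hR : ((p : ℕ) : AddMonoid.End (Additive E)) = 0 :=
        AddMonoidHom.ext fun v => Additive.toMul.injective (Subtype.ext (abE.2 _ v.toMul.2))
      have h := quad_cent_two hp h5 hR (ρ.comp (f.comp (inclusion nE))) (inj.comp inj')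
        (x := ⟨x, hxM⟩) hq (Q := (pCoreOf r M).subgroupOf M)
        (hr2 ▸ (pcore_pGrp r M).subgroupOf M)
        (subgroupOf_norm M (pcore_norm _ M) (show (⟨x, hxM⟩ : M) ∈ M.subgroupOf M from hxM))
      rw [← subgroupOf_cent_eq sO] at h
      exact h
    · intro g hg
      have rO : IsPGrp r (pCoreOf r M) := pcore_pGrp r M
      have sL : closure {x, g * x * g⁻¹} ≤ zpowers x ⊔ pCoreOf r M := by
        rw [closure_pair]
        refine sup_le le_sup_left (zpowers_le.2 ?_)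
        exact mul_mem (mul_mem (mem_sup_right hg) (mem_sup_left (mem_zpowers x)))
          (mem_sup_right (inv_mem hg))
      have sM : zpowers x ⊔ pCoreOf r M ≤ M := sup_le (zpowers_le.2 hxM) sO
      have odd : Odd (Nat.card (zpowers x ⊔ pCoreOf r M : Subgroup G)) := by
        have h2 : IsPiGrp {2}ᶜ (zpowers x ⊔ pCoreOf r M) :=
          (IsPGrp.piGrp (piGrp_zpowers_iff.2 px) (by simp; omega)).sup (rO.piGrp hr2)
            (Or.inl (zpowers_le.2 nO))
        exact Nat.not_even_iff_odd.1 fun h =>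
          (piGrp_compl_singleton_iff Nat.prime_two).1 h2 h.two_dvd
      have hy : ⁅⁅E, zpowers (g * x * g⁻¹)⁆, zpowers (g * x * g⁻¹)⁆ = ⊥ := by
        have := congrArg (· :^ g) hx
        simp only [conjg_comm, conjg_zpowers, conjg_bot, conjg_of_mem_norm (nE (sO hg))] at this
        exact this
      have hu : x⁻¹ * (g * x * g⁻¹) ∈ pCoreOf r M := by
        have := mul_mem (conj_mem_of_mem_norm' nO hg) (inv_mem hg)
        simpa only [mul_assoc] using this
      have h := quadratic_pair_cent hp pE ((sL.trans sM).trans nE) px (px.conj g) hx hy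
        (odd_of_le odd sL) (Q := zpowers (x⁻¹ * (g * x * g⁻¹)))
        (zpowers_le.2 (mul_mem (inv_mem (subset_closure (by simp))) (subset_closure (by simp))))
        ((rO.piGrp hrp).of_le (zpowers_le.2 hu))
      have h2 : x⁻¹ * (g * x * g⁻¹) ∈ M ⊓ 𝒞(E) := ⟨sO hu, h (mem_zpowers _)⟩
      rw [hC, mem_bot, inv_mul_eq_one] at h2
      conv_rhs => rw [h2]
      rw [inv_mul_cancel_right]
  have h1 : fittingOf M ≤ 𝒞(zpowers x) :=
    fitting_le_of_forall_pcore fun r hr => le_cent_symm (zpowers_le.2 (hcent r hr))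
  have h2 : zpowers x ≤ fittingOf M :=
    (le_inf (zpowers_le.2 hxM) (le_cent_symm h1)).trans (cent_sub_Fitting solM)
  have h3 := le_pcore_of_le_fitting h2 (piGrp_zpowers_iff.2 px)
  have h4 : x ∈ pCoreOf p M := h3 (mem_zpowers x)
  rwa [hO] at h4

theorem quad_minNormal (hp : p.Prime) (h5 : 5 ≤ p) {E L : Subgroup G} {x : G}
    (abE : IsElementaryAbelian p E) (minE : MinNormal E L) (solL : Group.IsSolvable L)
    (hxL : x ∈ L) (px : IsPiElt {p} x) (hx : ⁅⁅E, zpowers x⁆, zpowers x⁆ = ⊥) : x ∈ 𝒞(E) := by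
  obtain ⟨X, _, _, f, g, injf, injg, hfg⟩ := exists_holomorph E
  have nE := minE.norm
  let ψ : 𝒩(E) →* X := g.comp E.normalizerMonoidHom
  have hψ : ∀ (n : 𝒩(E)) (e : E),
      ψ n * f e * (ψ n)⁻¹ = f ⟨n * e * (n : G)⁻¹, conj_mem_of_mem_norm n.2 e.2⟩ :=
    fun n e => hfg _ _
  have hker : ∀ n : 𝒩(E), ψ n = 1 ↔ (n : G) ∈ 𝒞(E) := fun n => by
    have : n ∈ E.normalizerMonoidHom.ker ↔ (n : G) ∈ 𝒞(E) := by rw [normalizerMonoidHom_ker]; rfl
    rw [← this, MonoidHom.mem_ker]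
    exact (injective_iff_map_eq_one' g).1 injg _
  have hcent : ∀ (n : 𝒩(E)) (e : E), f e * ψ n = ψ n * f e → (e : G) * n = n * e := by
    intro n e h
    have h1 := hψ n e
    rw [← h, mul_inv_cancel_right] at h1
    have h2 : (e : G) = n * e * (n : G)⁻¹ := congrArg Subtype.val (injf h1)
    rw [eq_mul_inv_iff_mul_eq] at h2
    exact h2
  have abE' : IsElementaryAbelian p f.range := by
    refine ⟨abelian_iff_forall.2 ?_, ?_⟩
    · rintro _ ⟨a, rfl⟩ _ ⟨b, rfl⟩
      rw [← map_mul, ← map_mul]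
      exact congrArg f (Subtype.ext (abelian_iff_forall.1 abE.1 _ a.2 _ b.2))
    · rintro _ ⟨a, rfl⟩
      rw [← map_pow, show a ^ p = 1 from Subtype.ext (abE.2 _ a.2), map_one]
  have nE' : img ψ L ≤ 𝒩(f.range) := by
    intro y hy
    obtain ⟨n, -, rfl⟩ := mem_img.1 hy
    refine mem_norm_of_forall ?_
    rintro _ ⟨e, rfl⟩
    exact ⟨_, (hψ n e).symm⟩
  have hC : img ψ L ⊓ 𝒞(f.range) = ⊥ := by
    refine (eq_bot_iff_forall _).2 fun y hy => ?_
    obtain ⟨n, -, rfl⟩ := mem_img.1 hy.1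
    exact (hker n).2 fun e he => hcent n ⟨e, he⟩ (hy.2 _ ⟨_, rfl⟩)
  have hO : pCoreOf p (img ψ L) = ⊥ := by
    have pO := pcore_pGrp p (img ψ L)
    have nt : f.range ≠ ⊥ := by
      obtain ⟨e, he, he1⟩ := exists_mem_ne_one minE.ne_bot
      exact ne_bot_of_mem ⟨⟨e, he⟩, rfl⟩ fun h =>
        he1 (congrArg Subtype.val ((injective_iff_map_eq_one f).1 injf _ h))
    obtain ⟨_, ⟨⟨e, rfl⟩, he⟩, he1⟩ := exists_mem_ne_one
      (pGrp_inf_cent_ne_bot (abelem_pGrp hp abE') pO ((pcore_le _ _).trans nE') nt)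
    rcases minE.eq_bot_or_eq (W := ((𝒞(pCoreOf p (img ψ L))).comap f).map E.subtype) (map_subtype_le _)
      (fun n hn => mem_norm_of_forall (by
        rintro _ ⟨w, hw, rfl⟩
        refine ⟨⟨n * w * n⁻¹, conj_mem_of_mem_norm (nE hn) w.2⟩, ?_, rfl⟩
        change f _ ∈ 𝒞(pCoreOf p (img ψ L))
        rw [← hψ ⟨n, nE hn⟩ w]
        exact conj_mem_of_mem_norm (norm_cent (pcore_norm _ _) (mem_img_of_mem (nE hn) hn)) hw)) with h | h
    · have : (e : G) ∈ (⊥ : Subgroup G) := h ▸ ⟨e, he, rfl⟩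
      exact absurd (by rw [show e = 1 from Subtype.ext this, map_one]) he1
    · refine le_bot_iff.1 (le_trans (le_inf (pcore_le _ _) (le_cent_symm ?_)) hC.le)
      rintro _ ⟨a, rfl⟩
      exact (mem_map_iff_mem E.subtype_injective).1 (h.ge a.2)
  have hq : ⁅⁅f.range, zpowers (ψ ⟨x, nE hxL⟩)⁆, zpowers (ψ ⟨x, nE hxL⟩)⁆ = ⊥ := by
    rw [comm_eq_bot_iff, cent_zpowers, commutator_le]
    rintro _ ⟨e, rfl⟩ _ ⟨k, rfl⟩
    have h1 : ⁅(e : G), x ^ k⁆ ∈ 𝒞(zpowers x) :=
      comm_eq_bot_iff.1 hx (commutator_mem_commutator e.2 (zpow_mem_zpowers x k))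
    have h2 : ⁅(e : G), x ^ k⁆ ∈ E :=
      comm_le_left (zpowers_le.2 (nE hxL)) (commutator_mem_commutator e.2 (zpow_mem_zpowers x k))
    have h3 : ⁅f e, ψ ⟨x, nE hxL⟩ ^ k⁆ = f ⟨_, h2⟩ := by
      have := hψ (⟨x, nE hxL⟩ ^ k) e⁻¹
      rw [commutatorElement_def, ← map_zpow, ← map_inv f, mul_assoc, mul_assoc, ← mul_assoc (ψ _), this,
        ← map_mul]
      congr 1
      refine Subtype.ext ?_
      simp [commutatorElement_def, mul_assoc]
    change ⁅f e, ψ ⟨x, nE hxL⟩ ^ k⁆ ∈ _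
    rw [h3, mem_centralizer_singleton_iff, eq_comm, ← mul_inv_eq_iff_eq_mul, hψ]
    congr 1
    refine Subtype.ext ?_
    change x * ⁅(e : G), x ^ k⁆ * x⁻¹ = ⁅(e : G), x ^ k⁆
    rw [h1 x (mem_zpowers x), mul_inv_cancel_right]
  have h := quad_faithful hp h5 abE' nE' hC (sol_img ψ solL) hO (mem_img_of_mem (nE hxL) hxL)
    (IsPiElt.map (x := (⟨x, nE hxL⟩ : 𝒩(E))) (by rwa [IsPiElt, ← Subgroup.orderOf_coe]) ψ) hq
  exact (hker _).1 h

theorem quad_cent (hp : p.Prime) (h5 : 5 ≤ p) {E : Subgroup G} {x y : G}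
    (pE : IsPGrp p E) (nE : closure {x, y} ≤ 𝒩(E)) (px : IsPiElt {p} x)
    (py : IsPiElt {p} y) (hx : ⁅⁅E, zpowers x⁆, zpowers x⁆ = ⊥) (hy : ⁅⁅E, zpowers y⁆, zpowers y⁆ = ⊥)
    (sol : Group.IsSolvable (closure {x, y} : Subgroup G)) {Q : Subgroup G} (sQ : Q ≤ closure {x, y})
    (p'Q : IsPiGrp {p}ᶜ Q) : Q ≤ 𝒞(E) := by
  induction hn : Nat.card E using Nat.strong_induction_on generalizing G with
  | _ n ih =>
  subst hn
  by_cases h0 : E = ⊥
  · rw [h0, cent_bot]; exact le_top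
  obtain ⟨V, sVZ, minV⟩ := minNormal_exists (center_nil_ne_bot pE.nil h0) (norm_inf nE (norm_cent nE))
  have sVE := sVZ.trans inf_le_left
  have pV := pE.of_le sVE
  have nVE : E ≤ 𝒩(V) := norm_of_cent' (sVZ.trans inf_le_right)
  have abV : IsElementaryAbelian p V := by
    rcases minV.eq_bot_or_eq (ohm1_le p V) (norm_ohm1 p minV.norm) with h | h
    · exact absurd h (ohm1_ne_bot pV minV.ne_bot)
    · exact h ▸ ohm1_abelem p (abelian_of_le (abelian_inf_cent E) sVZ)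
  have cQV : Q ≤ 𝒞(V) := by
    refine sQ.trans ?_
    rw [closure_pair]
    exact sup_le (zpowers_le.2 (quad_minNormal hp h5 abV minV sol (subset_closure (by simp)) px
      (le_bot_iff.1 ((commutator_mono (commutator_mono sVE le_rfl) le_rfl).trans hx.le))))
      (zpowers_le.2 (quad_minNormal hp h5 abV minV sol (subset_closure (by simp)) py
      (le_bot_iff.1 ((commutator_mono (commutator_mono sVE le_rfl) le_rfl).trans hy.le))))
  have hxN : x ∈ 𝒩(V) := minV.norm (subset_closure (by simp))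
  have hyN : y ∈ 𝒩(V) := minV.norm (subset_closure (by simp))
  have e : closure {x, y} /ₛ V = closure {coset V ⟨x, hxN⟩, coset V ⟨y, hyN⟩} := by
    rw [closure_pair, closure_pair, quot_sup (zpowers_le.2 hxN) (zpowers_le.2 hyN),
      ← quot_zpowers, ← quot_zpowers]
  have hq : ∀ z : 𝒩(V), (z : G) ∈ 𝒩(E) → ⁅⁅E, zpowers (z : G)⁆, zpowers (z : G)⁆ = ⊥ →
      ⁅⁅E /ₛ V, zpowers (coset V z)⁆, zpowers (coset V z)⁆ = ⊥ := by
    intro z hzE hz
    rw [← quot_zpowers, ← quot_comm nVE (zpowers_le.2 z.2),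
      ← quot_comm ((comm_le_left (zpowers_le.2 hzE)).trans nVE) (zpowers_le.2 z.2), hz, bot_quot]
  have h2 := ih _ (card_quot_lt_of_normal ⟨sVE, nVE⟩ minV.ne_bot) (pE.quot V) (e ▸ quot_norm V nE)
    (IsPiElt.map (x := (⟨x, hxN⟩ : 𝒩(V))) (by rwa [IsPiElt, ← Subgroup.orderOf_coe]) _)
    (IsPiElt.map (x := (⟨y, hyN⟩ : 𝒩(V))) (by rwa [IsPiElt, ← Subgroup.orderOf_coe]) _)
    (hq ⟨x, hxN⟩ (nE (subset_closure (by simp))) hx) (hq ⟨y, hyN⟩ (nE (subset_closure (by simp))) hy)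
    (e ▸ sol_quot V sol) (e ▸ quot_mono V sQ) (p'Q.quot V) rfl
  exact stable_factor_cent' cQV ((quot_cent_iff' (sQ.trans minV.norm) nVE).1 h2) (pV.coprime p'Q)

/-- Solvable groups are `p`-stable for `p ≥ 5`. -/
theorem sol_p_stable (hp : p.Prime) (h5 : 5 ≤ p) {H : Subgroup G} (solH : Group.IsSolvable H) :
    PStable p H := by
  intro P A pP _ sA pA hA y hy
  have nCN : H ⊓ 𝒩(P) ≤ 𝒩(H ⊓ 𝒞(P)) := norm_inf (norm_of_le inf_le_left) (norm_cent inf_le_right)
  obtain ⟨a, ha, rfl⟩ := mem_quot.1 hy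
  refine baer_suzuki_of hp (K := {y | ∃ n : 𝒩(H ⊓ 𝒞(P)), (n : G) ∈ H ⊓ 𝒩(P) ∧ IsPiElt {p} (n : G) ∧
    ⁅⁅P, zpowers (n : G)⁆, zpowers (n : G)⁆ = ⊥ ∧ coset _ n = y}) ?_ ?_ ?_ _
    ⟨a, sA ha, pA.piElt ha, le_bot_iff.1 ((commutator_mono (commutator_mono le_rfl (zpowers_le.2 ha))
      (zpowers_le.2 ha)).trans hA.le), rfl⟩
  · rintro _ ⟨n, hn, -, -, rfl⟩
    exact mem_quot.2 ⟨n, hn, rfl⟩
  · rintro g hg _ ⟨n, hn, pn, qn, rfl⟩
    obtain ⟨m, hm, rfl⟩ := mem_quot.1 hg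
    refine ⟨m * n * m⁻¹, mul_mem (mul_mem hm hn) (inv_mem hm), pn.conj m, ?_,
      by rw [map_mul, map_mul, map_inv]⟩
    have := congrArg (· :^ (m : G)) qn
    simp only [conjg_comm, conjg_zpowers, conjg_bot, conjg_of_mem_norm hm.2] at this
    exact this
  · rintro _ ⟨x, hx, px, qx, rfl⟩ _ ⟨y, hy, py, qy, rfl⟩
    have sL : closure {(x : G), (y : G)} ≤ H ⊓ 𝒩(P) := by
      rw [closure_pair]; exact sup_le (zpowers_le.2 hx) (zpowers_le.2 hy)
    have e : closure {(x : G), (y : G)} /ₛ (H ⊓ 𝒞(P)) = closure {coset _ x, coset _ y} := by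
      rw [closure_pair, closure_pair, quot_sup (zpowers_le.2 x.2) (zpowers_le.2 y.2),
        ← quot_zpowers, ← quot_zpowers]
    rw [← e, IsPGrp, piGrp_quot_iff (sL.trans nCN)]
    refine piNat_relIndex_inf (norm_cent (sL.trans inf_le_right)) ?_
      (piNat_relIndex_of_forall_le fun _ => quad_cent hp h5 pP (sL.trans inf_le_right) px py qx qy
        (sol_of_le solH (sL.trans inf_le_left)))
    rw [relIndex_eq_one.2 (sL.trans inf_le_left)]
    exact PiNat.one _

theorem sol_p_abelian_constrained (hp : p.Prime) (h5 : 5 ≤ p) {H : Subgroup G}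
    (solH : Group.IsSolvable H) : PAbelianConstrained p H :=
  p_stable_abelian_constrained (solvable_p_constrained p solH) (sol_p_stable hp h5 solH)

theorem abelian_gen_stable {H P : Subgroup G} (stab : PStable p H)
    (pP : IsPGrp p P) (nsP : P ⊲ H) {S : Set (Subgroup G)}
    (hS : ∀ B ∈ S, B ≤ H ∧ IsMulCommutative B ∧ IsPGrp p B ∧ P ≤ 𝒩(B)) :
    (sSup S /ₛ (H ⊓ 𝒞(P))) ≤ pCoreOf p (H /ₛ (H ⊓ 𝒞(P))) := by
  have nC : H ≤ 𝒩(H ⊓ 𝒞(P)) := (inf_cent_normalIn_of_norm nsP.2).2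
  refine quot_le_of_le_quotPre (sSup_le fun B hB => ?_)
  obtain ⟨sB, cB, pB, nB⟩ := hS B hB
  have h := stab P B pP ((pcore_normal _ H).sup nsP) (le_inf sB (sB.trans nsP.2)) pB
    (comm_eq_bot_iff.2 ((comm_le_right nB).trans (abelian_iff_le_cent.1 cB)))
  rw [inf_eq_left.2 nsP.2] at h
  exact (quot_le_iff (sB.trans nC)).1 h

theorem abelian_gen_constrained {H P : Subgroup G} (stab : PStable p H)
    (solH : Group.IsSolvable H) (pP : IsPGrp p P) (nsP : P ⊲ H) {S : Set (Subgroup G)}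
    (hS : ∀ B ∈ S, B ≤ H ∧ IsMulCommutative B ∧ IsPGrp p B ∧ P ≤ 𝒩(B))
    (hO : pPrimeCoreOf p H = ⊥) (hC : pCoreOf p H ⊓ 𝒞(P) ≤ P) : sSup S ≤ pCoreOf p H := by
  have nsC := inf_cent_normalIn_of_norm nsP.2
  have sPO : P ≤ pCoreOf p H := pcore_max nsP pP
  have pO := pcore_pGrp p H
  have pC : IsPGrp p (H ⊓ 𝒞(P)) := by
    rw [IsPGrp, IsPiGrp, ← relIndex_bot_left]
    refine piNat_relIndex_of_forall_le fun Q sQ p'Q => ?_
    have sQH := sQ.trans inf_le_left
    have h1 : P ≤ pCoreOf p H ⊓ 𝒞(Q) := le_inf sPO (le_cent_symm (sQ.trans inf_le_right))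
    have h2 := coprime_nil_faithful_cent_stab (sQH.trans (pcore_norm _ H)) (pO.coprime p'Q) pO.nil
      (((inf_le_inf_left _ (cent_anti h1)).trans hC).trans h1)
    exact ((pO.of_le ((le_inf sQH h2).trans (cent_sub_pcore solH hO))).eq_bot p'Q).le
  have h := abelian_gen_stable stab pP nsP hS
  rw [pCoreOf, ← pcore_quot_of_piGrp nsC pC] at h
  exact (quot_le_quot_iff' ((sSup_le fun B hB => (hS B hB).1).trans nsC.2) (pcore_max nsC pC)).1 h

theorem stable_pcore_Sylow_Puig_sub {H S : Subgroup G} (stab : PStable p H)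
    (solH : Group.IsSolvable H) (sylS : IsSylowOf p S H) (hO : pPrimeCoreOf p H = ⊥) :
    puigInfOf S ≤ puigInfOf (pCoreOf p H) ∧ puigOf (pCoreOf p H) ≤ puigOf S := by
  have sTS : pCoreOf p H ≤ S := IsPiHallOf.pcore_le sylS
  have pT := pcore_pGrp p H
  have h1 : puigSucc S (puigOf (pCoreOf p H)) ≤ pCoreOf p H :=
    abelian_gen_constrained stab solH (pT.of_le (Puig_sub _))
      ((Puig_char _).trans_normal (pcore_normal _ H))
      (fun B hB => ⟨hB.1.trans sylS.le, hB.2.1, sylS.piGrp.of_le hB.1, hB.2.2⟩) hO (cent_Puig pT)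
  have h2 : puigInfOf S ≤ puigInfOf (pCoreOf p H) := by
    refine puigInfOf_le_iff.2 fun n => ?_
    induction n with
    | zero => exact bot_le
    | succ n ih =>
      exact (puigSucc_mono le_rfl ((Puig_def _).ge.trans (puigSucc_mono sTS ih))).trans
        ((puigSucc_restrict sTS h1).symm.trans (Puig_inf_def _)).le
  exact ⟨h2, (Puig_def _).ge.trans ((puigSucc_mono sTS h2).trans (Puig_def S).le)⟩

/-- The `Z(L(S))` theorem for `p`-stable solvable groups. -/
theorem stable_Puig_center_normal (hp : p.Prime) {H S : Subgroup G} (stab : PStable p H)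
    (solH : Group.IsSolvable H) (sylS : IsSylowOf p S H) (hO : pPrimeCoreOf p H = ⊥) :
    𝒵(puigOf S) ⊲ H := by
  obtain ⟨sLiST, sLTS⟩ := stable_pcore_Sylow_Puig_sub stab solH sylS hO
  have sTS : pCoreOf p H ≤ S := IsPiHallOf.pcore_le sylS
  have pS : IsPGrp p S := sylS.piGrp
  have sLS := Puig_sub S
  obtain ⟨Y, hY⟩ : ∃ Y, Y = 𝒵(puigOf (pCoreOf p H)) := ⟨_, rfl⟩
  have nsY : Y ⊲ H := hY ▸ (center_Puig_char _).trans_normal (pcore_normal _ H)
  have sYT : Y ≤ pCoreOf p H := hY ▸ inf_le_left.trans (Puig_sub _)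
  have sZY : 𝒵(puigOf S) ≤ Y := by
    rw [hY]
    refine le_inf (le_trans ?_ (sLiST.trans (Puig_inf_sub _))) (inf_le_right.trans (cent_anti sLTS))
    refine (inf_le_inf sLS (cent_anti (Puig_inf_sub S))).trans ?_
    rw [← Puig_inf_def S]
    exact cent_puigSucc pS.nil sLS
  have nsD := inf_cent_normalIn_of_norm nsY.2
  have nsC := quotPre_normalIn_of nsD (pcore_normal {p} _)
  have sYLi : Y ≤ puigInfOf S :=
    (le_puigSucc (sYT.trans sTS) (hY ▸ abelian_inf_cent _) ((sLS.trans sylS.le).trans nsY.2)).trans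
      (Puig_inf_def S).le
  have sLC : puigOf S ≤ quotPre (H ⊓ 𝒞(Y)) (pCoreOf p (H /ₛ (H ⊓ 𝒞(Y)))) := by
    refine ((Puig_def S).ge.trans (puigSucc_mono le_rfl sYLi)).trans ?_
    exact (quot_le_iff (((puigSucc_le S Y).trans sylS.le).trans nsD.2)).1
      (abelian_gen_stable stab ((pcore_pGrp p H).of_le sYT) nsY
        fun B hB => ⟨hB.1.trans sylS.le, hB.2.1, pS.of_le hB.1, hB.2.2⟩)
  have sylC := sylS.normal_inf nsC
  have defC := sylC.sup_eq_of_index (le_quotPre _) (by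
    rw [relIndex_quotPre_self]; exact pcore_piGrp _ _)
  have hN := (center_Puig_char
    (quotPre (H ⊓ 𝒞(Y)) (pCoreOf p (H /ₛ (H ⊓ 𝒞(Y)))) ⊓ S)).norm_le
  rw [sub_Puig_eq inf_le_right (le_inf sLC sLS)] at hN
  refine ⟨(inf_le_left.trans sLS).trans sylS.le, (frattini_arg hp nsC sylC).ge.trans
    (sup_le (defC.ge.trans (sup_le ?_ (le_normalizer.trans hN))) (inf_le_right.trans hN))⟩
  exact norm_of_cent (inf_le_right.trans (cent_anti sZY))

/-- The `Z(L(S))` theorem for solvable groups and `p ≥ 5`. -/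
theorem sol_Puig_center_normal (hp : p.Prime) (h5 : 5 ≤ p) {H S : Subgroup G}
    (solH : Group.IsSolvable H) (sylS : IsSylowOf p S H) (hO : pPrimeCoreOf p H = ⊥) :
    𝒵(puigOf S) ⊲ H :=
  stable_Puig_center_normal hp (sol_p_stable hp h5 solH) solH sylS hO

end CA.TG
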