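/-
The commuting graph on four-subgroups; `p`-length one for odd groups with `S'` cyclic.
-/
import Cfsg.Agent.BG.I06
import Cfsg.Prelude.Def_CaseTheorems

set_option autoImplicit false
set_option linter.unusedSectionVars false

namespace CA.TG.Four

open Subgroup Cfsg CA.FG CA.BG CA.BG.P06
open scoped commutatorElement

universe u v

variable {G : Type u} [Group G] [Finite G] {p : ℕ}

theorem kleinFour_iff {L : Subgroup G} : IsKleinFour L ↔ Nat.card L = 4 ∧ ∀ x ∈ L, x ^ 2 = 1 := by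
  constructor
  · intro h
    refine ⟨h.card_four, fun x hx => ?_⟩
    have := Monoid.pow_exponent_eq_one (⟨x, hx⟩ : L)
    rw [h.exponent_two] at this
    exact congrArg Subtype.val this
  · rintro ⟨h1, h2⟩
    refine ⟨h1, ?_⟩
    have h3 : Monoid.exponent L ∣ 2 :=
      Monoid.exponent_dvd_of_forall_pow_eq_one fun x => Subtype.ext (h2 x x.2)
    rcases (Nat.dvd_prime Nat.prime_two).1 h3 with h | h
    · have := Monoid.exp_eq_one_iff.1 h
      rw [Nat.card_of_subsingleton (1 : L)] at h1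
      omega
    · exact h

omit [Finite G] in
theorem comm_of_sq {L : Subgroup G} (h : ∀ x ∈ L, x ^ 2 = 1) {a b : G} (ha : a ∈ L) (hb : b ∈ L) :
    a * b = b * a := by
  have hi : ∀ x ∈ L, x⁻¹ = x := fun x hx => by rw [inv_eq_iff_mul_eq_one, ← pow_two, h x hx]
  rw [← hi _ (mul_mem ha hb), mul_inv_rev, hi a ha, hi b hb]

theorem exists_four_of_lt {A : Subgroup G} (h : ∀ x ∈ A, x ^ 2 = 1) (h2 : 2 < Nat.card A) :
    ∃ L, L ≤ A ∧ IsKleinFour L := by
  obtain ⟨k, hk⟩ := (pGrp_iff_card Nat.prime_two).1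
    (pGrp_of_forall_pow (H := A) Nat.prime_two (k := 1) (by simpa using h))
  have h3 : 2 ≤ k := by
    by_contra h4
    have : k = 0 ∨ k = 1 := by omega
    rcases this with rfl | rfl <;> omega
  obtain ⟨L, sL, oL⟩ := exists_le_card_eq_pow (H := A) Nat.prime_two (hk ▸ pow_dvd_pow 2 h3)
  exact ⟨L, sL, kleinFour_iff.2 ⟨oL, fun x hx => h x (sL hx)⟩⟩

theorem kleinFour_conjg {L : Subgroup G} (h : IsKleinFour L) (g : G) : IsKleinFour (L :^ g : Subgroup G) := by
  rw [kleinFour_iff] at h ⊢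
  refine ⟨by rw [card_conjg, h.1], fun x hx => ?_⟩
  obtain ⟨y, hy, rfl⟩ := mem_conjg'.1 hx
  rw [conj_pow, h.2 y hy]; simp

theorem four_pair {u z : G} (hu : u ^ 2 = 1) (hz : z ^ 2 = 1) (hu1 : u ≠ 1) (hz1 : z ≠ 1)
    (h : z ∉ zpowers u) (hc : z ∈ 𝒞[u]) : IsKleinFour (zpowers u ⊔ zpowers z : Subgroup G) := by
  have hc' : zpowers u ≤ 𝒞(zpowers z) := le_cent_symm (by rw [cent_zpowers]; exact zpowers_le.2 hc)
  have ou := card_zpowers_of_pow_prime Nat.prime_two hu hu1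
  have oz := card_zpowers_of_pow_prime Nat.prime_two hz hz1
  refine kleinFour_iff.2 ⟨?_, (abelem_sup (abelem_zpowers hu) (abelem_zpowers hz) hc').2⟩
  rw [card_sup_of_inf_eq_bot (Or.inl (norm_of_cent hc')), ou, oz]
  rw [inf_comm]
  exact (inf_eq_bot_or_le_of_card_prime (oz ▸ Nat.prime_two) _).resolve_right fun h' => h (h' (mem_zpowers z))

open scoped IsMulCommutative in
theorem card_le_sq {E : Subgroup G} (cE : IsMulCommutative E) (hE : ∀ e ∈ E, e ^ 2 = 1) {v : G}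
    (nE : v ∈ 𝒩(E)) (hv : v ^ 2 = 1) :
    Nat.card E ≤ Nat.card (E ⊓ 𝒞[v] : Subgroup G) * Nat.card (E ⊓ 𝒞[v] : Subgroup G) := by
  have hc := abelian_iff_forall.1 cE
  have hvv : v * v = 1 := by rw [← pow_two, hv]
  have hvi : v⁻¹ = v := inv_eq_of_mul_eq_one_right hvv
  let f : E →* G :=
    { toFun := fun e => e * (v * e * v⁻¹)
      map_one' := by simp
      map_mul' := fun a b => by
        have := hc _ b.2 _ (conj_mem_of_mem_norm nE a.2)
        calc ((a * b : E) : G) * (v * (a * b : E) * v⁻¹)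
            = a * (b * (v * a * v⁻¹)) * (v * b * v⁻¹) := by push_cast; group
          _ = _ := by rw [this]; group }
  have h1 := card_map_mul_card_inf_ker (⊤ : Subgroup E) f
  rw [card_top] at h1
  rw [← h1]
  refine Nat.mul_le_mul (card_le_of_le ?_) ?_
  · rintro _ ⟨e, -, rfl⟩
    refine mem_inf.2 ⟨mul_mem e.2 (conj_mem_of_mem_norm nE e.2), mem_centralizer_singleton_iff.2 ?_⟩
    change e * (v * e * v⁻¹) * v = v * (e * (v * e * v⁻¹))
    rw [hc _ e.2 _ (conj_mem_of_mem_norm nE e.2), hvi]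
    calc v * e * v * e * v = v * (e * (v * e * v)) := by group
      _ = _ := by rw [← hvi, hc _ e.2 _ (by rw [hvi]; simpa [hvi] using conj_mem_of_mem_norm nE e.2)]
  · rw [← card_map_of_injective E.subtype_injective]
    refine card_le_of_le ?_
    rintro _ ⟨e, ⟨he, -⟩, rfl⟩
    refine mem_inf.2 ⟨e.2, mem_centralizer_singleton_iff.2 ?_⟩
    have h2 : (e : G) * (v * e * v⁻¹) = 1 := he
    have h3 : (e : G) * e = 1 := by rw [← pow_two, hE _ e.2]
    have h4 : v * e * v⁻¹ = e := mul_left_cancel (h2.trans h3.symm)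
    change (e : G) * v = v * e
    conv_lhs => rw [← h4]
    rw [inv_mul_cancel_right]

theorem fourConnected_of_normal (pG : IsPGrp 2 (⊤ : Subgroup G)) {E : Subgroup G} (nE : ⊤ ≤ 𝒩(E))
    (cE : IsMulCommutative E) (hE : ∀ e ∈ E, e ^ 2 = 1) (h8 : 8 ≤ Nat.card E) : IsFourConnected G := by
  have ntE : E ≠ ⊥ := by rintro rfl; simp at h8
  obtain ⟨z, ⟨hzE, -, hzC⟩, hz1⟩ := exists_mem_ne_one (meet_center_nil pG.nil ⟨le_top, nE⟩ ntE)
  have hz : ∀ g, g * z = z * g := fun g => hzC g trivial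
  have key : ∀ u, u ^ 2 = 1 → u ≠ 1 → z ∉ zpowers u → ∃ W, W ≤ E ∧ IsKleinFour W ∧
      ∀ a ∈ zpowers u ⊔ zpowers z, ∀ b ∈ W, a * b = b * a := by
    intro u hu hu1 hzu
    have h1 := card_le_sq cE hE (nE (mem_top u)) hu
    obtain ⟨W, sW, hW⟩ := exists_four_of_lt (A := E ⊓ 𝒞[u]) (fun x hx => hE x hx.1) (by
      by_contra h; push Not at h; nlinarith)
    refine ⟨W, sW.trans inf_le_left, hW, le_cent_iff_forall.1 (sup_le ?_ ?_)⟩
    · exact le_cent_symm (by rw [cent_zpowers]; exact sW.trans inf_le_right)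
    · exact zpowers_le.2 fun g _ => hz g
  have key2 : ∀ U : Subgroup G, IsKleinFour U → ∃ X W : Subgroup G, IsKleinFour X ∧ W ≤ E ∧ IsKleinFour W ∧
      (∀ a ∈ U, ∀ b ∈ X, a * b = b * a) ∧ ∀ a ∈ X, ∀ b ∈ W, a * b = b * a := by
    intro U hU
    obtain ⟨oU, eU⟩ := kleinFour_iff.1 hU
    obtain ⟨u, hu, huz⟩ : ∃ u ∈ U, u ∉ zpowers z := by
      by_contra h
      push Not at h
      have := card_le_of_le (show U ≤ zpowers z from h)
      rw [oU, card_zpowers_of_pow_prime Nat.prime_two (hE z hzE) hz1] at this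
      omega
    have hu1 : u ≠ 1 := by rintro rfl; exact huz (one_mem _)
    have hzu : z ∉ zpowers u := fun h => huz ((eq_zpowers_of_card_prime
      (card_zpowers_of_pow_prime Nat.prime_two (eU u hu) hu1 ▸ Nat.prime_two) h hz1).le (mem_zpowers u))
    obtain ⟨W, sW, hW, hc⟩ := key u (eU u hu) hu1 hzu
    refine ⟨_, W, four_pair (eU u hu) (hE z hzE) hu1 hz1 hzu
      (mem_centralizer_singleton_iff.2 (hz u).symm), sW, hW, le_cent_iff_forall.1 (le_cent_symm
        (sup_le (zpowers_le.2 fun g hg => comm_of_sq eU hg hu) (zpowers_le.2 fun g _ => hz g))), hc⟩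
  intro U V hU hV
  obtain ⟨X, W, hX, sW, hW, c1, c2⟩ := key2 U hU
  obtain ⟨X', W', hX', sW', hW', c1', c2'⟩ := key2 V hV
  exact .head ⟨hU, hX, c1⟩ (.head ⟨hX, hW, c2⟩ (.head ⟨hW, hW', fun a ha b hb =>
    abelian_iff_forall.1 cE a (sW ha) b (sW' hb)⟩ (.head ⟨hW', hX', fun a ha b hb => (c2' b hb a ha).symm⟩
      (.single ⟨hX', hV, fun a ha b hb => (c1' b hb a ha).symm⟩))))

theorem not_pRankLE_iff {Q : Subgroup G} : ¬ PRankLE 2 1 Q ↔ ∃ V, V ≤ Q ∧ IsKleinFour V := by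
  constructor
  · intro h
    unfold PRankLE at h
    push Not at h
    obtain ⟨A, -, h1, h2⟩ := h
    obtain ⟨V, sV, hV⟩ := exists_four_of_lt (A := A.map Q.subtype) (by
      rintro _ ⟨a, ha, rfl⟩
      exact congrArg Subtype.val (h1 a ha)) (by rwa [card_map_of_injective Q.subtype_injective])
    exact ⟨V, sV.trans (map_subtype_le A), hV⟩
  · rintro ⟨V, sV, hV⟩ h
    obtain ⟨oV, eV⟩ := kleinFour_iff.1 hV
    have := h (V.subgroupOf Q) ((subgroupOf_abelian_iff sV).2 (abelian_iff_forall.2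
      fun a ha b hb => comm_of_sq eV ha hb)) fun a ha => Subtype.ext (eV _ ha)
    rw [card_subgroupOf sV, oV] at this
    omega

theorem chain_map {G' : Type v} [Group G'] [Finite G'] (f : G →* G') (hf : Function.Injective f)
    {U V : Subgroup G} (h : Relation.ReflTransGen (fun A B : Subgroup G =>
      IsKleinFour A ∧ IsKleinFour B ∧ ∀ a ∈ A, ∀ b ∈ B, a * b = b * a) U V) :
    Relation.ReflTransGen (fun A B : Subgroup G' =>
      IsKleinFour A ∧ IsKleinFour B ∧ ∀ a ∈ A, ∀ b ∈ B, a * b = b * a) (U.map f) (V.map f) := by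
  have hk : ∀ A : Subgroup G, IsKleinFour A → IsKleinFour (A.map f) := fun A hA => by
    rw [kleinFour_iff] at hA ⊢
    refine ⟨by rw [card_map_of_injective hf, hA.1], ?_⟩
    rintro _ ⟨a, ha, rfl⟩
    rw [← map_pow, hA.2 a ha, map_one]
  induction h with
  | refl => exact .refl
  | tail _ h ih =>
    refine ih.tail ⟨hk _ h.1, hk _ h.2.1, ?_⟩
    rintro _ ⟨a, ha, rfl⟩ _ ⟨b, hb, rfl⟩
    rw [← map_mul, ← map_mul, h.2.2 a ha b hb]

theorem not_fourConnected_iff (h2 : ¬ PRankLE 2 1 G) {S : Subgroup G} (sylS : IsSylowOf 2 S ⊤)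
    (hS : IsFourConnected S) : ¬ IsFourConnected G ↔
      (⨆ Q : {Q : Subgroup G // Q ≤ S ∧ ¬ PRankLE 2 1 Q}, 𝒩((Q : Subgroup G))) ≠ ⊤ := by
  set Γ := ⨆ Q : {Q : Subgroup G // Q ≤ S ∧ ¬ PRankLE 2 1 Q}, 𝒩((Q : Subgroup G)) with hΓ
  have p4 : ∀ V : Subgroup G, IsKleinFour V → IsPGrp 2 V := fun V hV =>
    pGrp_of_card_eq_pow Nat.prime_two (k := 2) hV.card_four
  have hN : ∀ Q V : Subgroup G, Q ≤ S → V ≤ Q → IsKleinFour V → 𝒩(Q) ≤ Γ := fun Q V h1 h3 h4 =>
    le_iSup (fun Q : {Q : Subgroup G // Q ≤ S ∧ ¬ PRankLE 2 1 Q} => 𝒩((Q : Subgroup G)))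
      ⟨Q, h1, not_pRankLE_iff.2 ⟨V, h3, h4⟩⟩
  obtain ⟨V, sVS, hV⟩ : ∃ V, V ≤ S ∧ IsKleinFour V := by
    unfold PRankLE at h2
    push Not at h2
    obtain ⟨A, -, h1, h3⟩ := h2
    obtain ⟨V, -, hV⟩ := exists_four_of_lt h1 h3
    obtain ⟨g, -, hg⟩ := sylow_Jsub Nat.prime_two sylS (p4 V hV) le_top
    exact ⟨_, hg, kleinFour_conjg hV g⟩
  have hS' : ∀ A B : Subgroup G, A ≤ S → B ≤ S → IsKleinFour A → IsKleinFour B →
      Relation.ReflTransGen (fun A B : Subgroup G =>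
        IsKleinFour A ∧ IsKleinFour B ∧ ∀ a ∈ A, ∀ b ∈ B, a * b = b * a) A B := by
    intro A B sA sB hA hB
    have hk : ∀ A : Subgroup G, A ≤ S → IsKleinFour A → IsKleinFour (A.subgroupOf S) := fun A sA hA => by
      rw [kleinFour_iff] at hA ⊢
      exact ⟨by rw [card_subgroupOf sA, hA.1], fun x hx => Subtype.ext (hA.2 _ hx)⟩
    have := chain_map S.subtype S.subtype_injective (hS _ _ (hk A sA hA) (hk B sB hB))
    rwa [map_subtype_subgroupOf sA, map_subtype_subgroupOf sB] at this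
  have symm : ∀ {A B : Subgroup G}, Relation.ReflTransGen (fun A B : Subgroup G =>
      IsKleinFour A ∧ IsKleinFour B ∧ ∀ a ∈ A, ∀ b ∈ B, a * b = b * a) A B →
      Relation.ReflTransGen (fun A B : Subgroup G =>
      IsKleinFour A ∧ IsKleinFour B ∧ ∀ a ∈ A, ∀ b ∈ B, a * b = b * a) B A := fun h => by
    induction h with
    | refl => exact .refl
    | tail _ h ih => exact .head ⟨h.2.1, h.1, fun a ha b hb => (h.2.2 b hb a ha).symm⟩ ih
  rw [not_iff_not]
  constructor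
  · intro hG
    have sSΓ : S ≤ Γ := le_normalizer.trans (hN S V le_rfl sVS hV)
    have sylΓ := sylS.of_le sSΓ le_top
    have hN' : ∀ Q W : Subgroup G, IsPGrp 2 Q → Q ≤ Γ → W ≤ Q → IsKleinFour W → 𝒩(Q) ≤ Γ := by
      intro Q W pQ sQ sW hW
      obtain ⟨g, hg, h⟩ := sylow_Jsub Nat.prime_two sylΓ pQ sQ
      have := hN _ _ h (conjg_mono g sW) (kleinFour_conjg hW g)
      rwa [← conjg_norm, conjg_le_iff_of_mem_norm (le_normalizer hg)] at this
    have hall : ∀ W : Subgroup G, IsKleinFour W → W ≤ Γ := by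
      intro W hW
      have h := hG V W hV hW
      clear hW
      induction h with
      | refl => exact sVS.trans sSΓ
      | tail _ h ih =>
        exact (norm_of_cent' (le_cent_iff_forall.2 h.2.2)).trans (hN' _ _ (p4 _ h.1) ih le_rfl h.1)
    refine top_le_iff.1 fun g _ => ?_
    have sV : V ≤ Γ ⊓ Γ :^ g := le_inf (hall V hV) (le_conjg_iff.2 (hall _ (kleinFour_conjg hV _)))
    obtain ⟨Q, sylQ, sVQ⟩ := sylow_superset Nat.prime_two (p4 V hV) sV
    have n1 : 𝒩(Q) ≤ Γ := hN' Q V sylQ.pGrp (sylQ.le.trans inf_le_left) sVQ hV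
    have sQ' : Q :^ g⁻¹ ≤ Γ := le_conjg_iff.1 (sylQ.le.trans inf_le_right)
    have n2 : 𝒩(Q :^ g⁻¹) ≤ Γ :=
      hN' _ _ (sylQ.piGrp.conjg _) sQ' (conjg_mono _ sVQ) (kleinFour_conjg hV _)
    have sylQ' : IsSylowOf 2 Q ⊤ := sylQ.of_norm_le Nat.prime_two le_top (inf_le_right.trans
      (le_inf n1 (le_conjg_iff.2 (by rwa [conjg_norm]))))
    obtain ⟨a, ha, e⟩ := sylow_trans Nat.prime_two (sylQ'.of_le (sylQ.le.trans inf_le_left) le_top)
      ((sylQ'.conjg_of_mem (mem_top g⁻¹)).of_le sQ' le_top)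
    have := n1 (conjg_eq_conjg_iff.1 e.symm)
    simpa using mul_mem this (inv_mem ha)
  · intro hΓ'
    let T : Subgroup G :=
      { carrier := {g | Relation.ReflTransGen (fun A B : Subgroup G =>
          IsKleinFour A ∧ IsKleinFour B ∧ ∀ a ∈ A, ∀ b ∈ B, a * b = b * a) V (V :^ g)}
        one_mem' := by rw [Set.mem_ofPred_eq, conjg_one]
        mul_mem' := fun {a b} ha hb => by
          rw [Set.mem_ofPred_eq, conjg_mul]
          exact Relation.ReflTransGen.trans ha (chain_map _ (conj_inj a) hb)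
        inv_mem' := fun {a} ha => by
          have := chain_map _ (conj_inj a⁻¹) ha
          rw [← conjg_def, ← conjg_def, conjg_inv_cancel] at this
          exact symm this }
    have hT : Γ ≤ T := iSup_le fun Q g hg => by
      obtain ⟨W, sW, hW⟩ := not_pRankLE_iff.1 Q.2.2
      exact (hS' V _ sVS ((conjg_le_of_mem_norm sW hg).trans Q.2.1) hV (kleinFour_conjg hW g)).trans
        (chain_map _ (conj_inj g) (hS' W V (sW.trans Q.2.1) sVS hW hV))
    have hall : ∀ W : Subgroup G, IsKleinFour W → Relation.ReflTransGen (fun A B : Subgroup G =>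
        IsKleinFour A ∧ IsKleinFour B ∧ ∀ a ∈ A, ∀ b ∈ B, a * b = b * a) V W := by
      intro W hW
      obtain ⟨g, -, hg⟩ := sylow_Jsub Nat.prime_two sylS (p4 W hW) le_top
      have h1 := chain_map _ (conj_inj g⁻¹) (hS' V _ sVS hg hV (kleinFour_conjg hW g))
      rw [← conjg_def, ← conjg_def, conjg_inv_cancel] at h1
      exact Relation.ReflTransGen.trans (hT (hΓ'.ge (mem_top g⁻¹))) h1
    exact fun A B hA hB => (symm (hall A hA)).trans (hall B hB)

theorem cent_of_minNormal_of_stable (hp : p.Prime) {H E A : Subgroup G} (stab : PStable p H)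
    (pE : IsPGrp p E) (sE : E ≤ H) (minE : MinNormal E H) (sA : A ≤ H) (pA : IsPGrp p A)
    (h : ⁅⁅E, A⁆, A⁆ = ⊥) : A ≤ 𝒞(E) := by
  have nE := minE.norm
  have h1 := stab E A pE ((pcore_normal _ H).sup ⟨sE, nE⟩) (le_inf sA (sA.trans nE)) pA h
  rw [inf_eq_left.2 nE] at h1
  have nsC := inf_cent_normalIn_of_norm nE
  have nsK := quotPre_normalIn_of nsC (pcore_normal {p} _)
  have sAK := (quot_le_iff (sA.trans nsC.2)).1 h1
  obtain ⟨T, sylT⟩ := sylow_exists hp (quotPre (H ⊓ 𝒞(E)) (pCoreOf p (H /ₛ (H ⊓ 𝒞(E)))))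
  have defK := sylT.sup_eq_of_index (le_quotPre _) (by
    rw [relIndex_quotPre_self]; exact pcore_piGrp _ _)
  have h2 := pGrp_inf_cent_ne_bot pE sylT.pGrp ((sylT.le.trans nsK.1).trans nE) minE.ne_bot
  have h3 : E ⊓ 𝒞(T) ≤ E ⊓ 𝒞(quotPre (H ⊓ 𝒞(E)) (pCoreOf p (H /ₛ (H ⊓ 𝒞(E))))) :=
    le_inf inf_le_left ((le_cent_sup (inf_le_left.trans (le_cent_symm inf_le_right)) inf_le_right).trans
      (cent_anti defK.ge))
  have h4 := (minE.eq_bot_or_eq inf_le_left (norm_inf nE (norm_cent nsK.2))).resolve_left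
    (ne_bot_mono h3 h2)
  exact sAK.trans (le_cent_symm (h4.ge.trans inf_le_right))

theorem normal_of_cyclic_der (hp : p.Prime) {H S : Subgroup G} (oddH : Odd (Nat.card H))
    (solH : Group.IsSolvable H) (sylS : IsSylowOf p S H) (cyc : IsCyclic (⁅S, S⁆ : Subgroup G))
    (hO : pPrimeCoreOf p H = ⊥) : S ⊲ H := by
  have hF := Fitting_eq_pcore hO
  have sOS : pCoreOf p H ≤ S := IsPiHallOf.pcore_le sylS
  have h1 : S ≤ fittingOf H := by
    refine chief_stab_sub_Fitting solH (normalIn_refl H) sylS.le fun U V ch sU => ?_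
    rw [hF] at sU
    have sUS := sU.trans sOS
    have nV := ch.normal_left.2
    have nVS := sylS.le.trans nV
    have nVU := ch.normal.2
    have pU : IsPGrp p (U /ₛ V) := (sylS.piGrp.of_le sUS).quot V
    have pS : IsPGrp p (S /ₛ V) := sylS.piGrp.quot V
    have minU := ch.minNormal
    obtain ⟨q, hq, abU⟩ := minU.abelem pU.sol
    have hqp : q = p := (abelem_pGrp hq abU).mem_of_piGrp minU.ne_bot pU
    subst hqp
    have nUS : S /ₛ V ≤ 𝒩(U /ₛ V) := (quot_mono V sylS.le).trans minU.norm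
    refine (quot_cent_iff' nVS nVU).1 (cent_of_minNormal_of_stable hp (odd_p_stable hp (odd_quot V oddH))
      pU (quot_mono V ch.normal_right.1) minU (quot_mono V sylS.le) pS ?_)
    have cW : IsCyclic (⁅U /ₛ V, S /ₛ V⁆ : Subgroup (Coset V)) := by
      rw [← quot_comm nVU nVS]
      exact cyclic_quot V (cyclic_of_le cyc (commutator_mono sUS le_rfl))
    obtain ⟨w, hw, e⟩ := cyclic_iff_eq_zpowers.1 cW
    by_cases hw1 : w = 1
    · rw [e, hw1, zpowers_one_eq_bot, commutator_bot_left]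
    · refine comm_eq_bot_iff'.2 (pGrp_cent_of_card_prime hp pS ?_ (norm_comm nUS le_normalizer))
      rw [e]
      exact card_zpowers_of_pow_prime hp (abU.2 w (comm_le_left nUS hw)) hw1
  rw [hF] at h1
  rw [le_antisymm h1 sOS]
  exact pcore_normal _ H

theorem sup_normal_of_cyclic_der (hp : p.Prime) {H S : Subgroup G} (oddH : Odd (Nat.card H))
    (solH : Group.IsSolvable H) (sylS : IsSylowOf p S H) (cyc : IsCyclic (⁅S, S⁆ : Subgroup G)) :
    pPrimeCoreOf p H ⊔ S ⊲ H := by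
  have nsO := pcore_normal {p}ᶜ H
  have nOS := sylS.le.trans nsO.2
  have h := normal_of_cyclic_der hp (odd_quot _ oddH) (sol_quot _ solH) (sylS.quot nsO.2)
    (by rw [← quot_comm nOS nOS]; exact cyclic_quot _ cyc) (pcore_quot_pcore _ H)
  have := quotPre_normalIn_of nsO h
  rwa [quotPre_quot nOS] at this

end CA.TG.Four
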