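/-
Groups in which every two elements generate a solvable subgroup, part A: a minimal counterexample is of
characteristic `p` type for every prime `p`, and is not a `{p, q}`-group.
-/
import Cfsg.Agent.TG.Stab

set_option autoImplicit false
set_option linter.unusedSectionVars false

namespace CA.TG.Two

open Subgroup Cfsg CA.FG CA.BG CA.BG.P06
open scoped commutatorElement

universe u

variable {G : Type u} [Group G] [Finite G] {p q : ℕ}
variable (hs : ∀ N : Subgroup G, ⊤ ≤ 𝒩(N) → N = ⊥ ∨ N = ⊤)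
  (hsol : ∀ H : Subgroup G, H ≠ ⊤ → Group.IsSolvable H)
  (h2 : ∀ x y : G, zpowers x ⊔ zpowers y ≠ ⊤)

include h2 in
theorem top_ne_bot' : (⊤ : Subgroup G) ≠ ⊥ := fun h => h2 1 1 (by rw [h]; simp)

include h2 in
theorem zpowers_ne_top (x : G) : zpowers x ≠ ⊤ := fun h => h2 x x (by rw [h, sup_idem])

include hs in
theorem norm_ne_top {X : Subgroup G} (h0 : X ≠ ⊥) (h1 : X ≠ ⊤) : 𝒩(X) ≠ ⊤ := fun h =>
  (hs X h.ge).elim h0 h1

include hs h2 in
theorem ne_top_of_sol {X : Subgroup G} (sol : Group.IsSolvable X) : X ≠ ⊤ := by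
  rintro rfl
  have h0 := top_ne_bot' h2
  rcases hs _ (der_normalIn (⊤ : Subgroup G)).2 with h | h
  · obtain ⟨x, -, hx⟩ := exists_mem_ne_one h0
    exact norm_ne_top hs (ne_bot_of_mem (mem_zpowers x) hx) (zpowers_ne_top h2 x)
      (top_le_iff.1 (norm_of_le_abelian (der_eq_bot_iff.1 h) le_top))
  · exact (der_lt_of_sol sol h0).ne h

include hs h2 in
theorem cent1_ne_top {x : G} (hx : x ≠ 1) : 𝒞[x] ≠ ⊤ := fun h =>
  norm_ne_top hs (ne_bot_of_mem (mem_zpowers x) hx) (zpowers_ne_top h2 x)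
    (top_le_iff.1 (norm_zpowers_of_cent h.ge))

include hs hsol h2 in
theorem p'core_cent1 {d : G} (pd : IsPiElt {p} d) (hd : d ≠ 1) : pPrimeCoreOf p 𝒞[d] = ⊥ := by
  let N : Subgroup G :=
    { carrier := {y | ∀ g, IsPiElt {p}ᶜ g → IsPiElt {p}ᶜ (y * g)}
      one_mem' := fun g hg => by rwa [one_mul]
      mul_mem' := fun ha hb g hg => by rw [mul_assoc]; exact ha _ (hb g hg)
      inv_mem' := fun {y} hy g hg => by
        have h1 : ∀ k : ℕ, IsPiElt {p}ᶜ (y ^ k * g) := fun k => by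
          induction k with
          | zero => rwa [pow_zero, one_mul]
          | succ k ih => rw [pow_succ', mul_assoc]; exact hy _ ih
        have h3 : y⁻¹ = y ^ (orderOf y - 1) := by
          rw [inv_eq_iff_mul_eq_one, ← pow_succ', Nat.sub_add_cancel (orderOf_pos y), pow_orderOf_eq_one]
        rw [h3]; exact h1 _ }
  have nN : ⊤ ≤ 𝒩(N) := fun h _ => mem_norm_of_forall fun y hy g hg => by
    have := (hy _ (hg.conj h⁻¹)).conj h
    convert this using 1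
    group
  have hN : N = ⊥ := (hs N nN).resolve_right fun h => by
    have h1 : d ∈ N := h ▸ mem_top d
    have h3 := h1 1 (piElt_one _)
    rw [mul_one] at h3
    exact hd (pd.eq_one h3)
  refine le_bot_iff.1 (le_trans (show _ ≤ N from fun y hy g hg => ?_) hN.le)
  have p'y := (pcore_piGrp {p}ᶜ 𝒞[d]).piElt hy
  have cy : d * y = y * d := (mem_centralizer_singleton_iff.1 (pcore_le _ _ hy)).symm
  have co : (orderOf d).Coprime (orderOf y) := PiNat.coprime pd p'y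
  have hdH : d ∈ zpowers (d * y) ⊔ zpowers g := mem_sup_left (mem_zpowers_mul_of_coprime cy co)
  have hyH : y ∈ zpowers (d * y) ⊔ zpowers g := mem_sup_left (mem_zpowers_mul_of_coprime' cy co)
  have hgH : g ∈ zpowers (d * y) ⊔ zpowers g := mem_sup_right (mem_zpowers g)
  have solH := hsol _ (h2 (d * y) g)
  generalize zpowers (d * y) ⊔ zpowers g = H at *
  have h1 := p'core_cent_pgroup (zpowers_le.2 hdH) (piGrp_zpowers_iff.2 pd) solH
  rw [cent_zpowers] at h1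
  have h3 : y ∈ pPrimeCoreOf p H :=
    h1 (inf_pcore_le {p}ᶜ (inf_le_right : H ⊓ 𝒞[d] ≤ _) ⟨⟨hyH, pcore_le _ _ hy⟩, hy⟩)
  have h4 : IsPiGrp {p}ᶜ (pPrimeCoreOf p H ⊔ zpowers g) :=
    (pcore_piGrp _ H).sup (piGrp_zpowers_iff.2 hg) (Or.inr (zpowers_le.2 (pcore_norm _ H hgH)))
  exact h4.piElt (mul_mem (mem_sup_left h3) (mem_sup_right (mem_zpowers g)))

include hs hsol h2 in
theorem p'core_norm {X : Subgroup G} (pX : IsPGrp p X) (h0 : X ≠ ⊥) : pPrimeCoreOf p 𝒩(X) = ⊥ := by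
  obtain ⟨d, hd, hd1⟩ := exists_mem_ne_one (center_nil_ne_bot pX.nil h0)
  have sXC : X ≤ 𝒞[d] := mem_cent_iff_le_cent_singleton.1 hd.2
  have h1 := p'core_norm_pgroup sXC pX (hsol _ (cent1_ne_top hs h2 hd1))
  rw [p'core_cent1 hs hsol h2 (pX.piElt hd.1) hd1] at h1
  have h3 : pPrimeCoreOf p 𝒩(X) ≤ 𝒞(X) :=
    (pcore_cent_of_disjoint (π := {p}ᶜ) (ρ := {p}) (fun _ h => h) _).trans
      (cent_anti (pcore_max ⟨le_normalizer, le_rfl⟩ pX))
  exact le_bot_iff.1 (le_trans (pcore_le_of_le _ inf_le_right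
    (le_inf (h3.trans (cent_le_cent_singleton hd.1)) (pcore_le _ _))) h1)

include hs in
theorem norm_eq_of_coatom {M X : Subgroup G} (hM : IsCoatom M) (h0 : X ≠ ⊥) (nsX : X ⊲ M) : 𝒩(X) = M := by
  by_contra h
  exact norm_ne_top hs h0 (fun e => hM.1 (top_le_iff.1 (e.ge.trans nsX.1)))
    (hM.2 _ (lt_of_le_of_ne nsX.2 (Ne.symm h)))

include hs hsol h2 in
theorem coatom_char {M : Subgroup G} (hM : IsCoatom M) :
    ∃ r, r.Prime ∧ pCoreOf r M ≠ ⊥ ∧ pPrimeCoreOf r M = ⊥ := by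
  have h0 : M ≠ ⊥ := by
    rintro rfl
    obtain ⟨x, -, hx⟩ := exists_mem_ne_one (top_ne_bot' h2)
    exact zpowers_ne_top h2 x (hM.2 _ (bot_lt_iff_ne_bot.2 (ne_bot_of_mem (mem_zpowers x) hx)))
  obtain ⟨r, hr, h⟩ := exists_pcore_ne_bot (hsol M hM.1) h0
  refine ⟨r, hr, h, ?_⟩
  have := p'core_norm hs hsol h2 (pcore_pGrp r M) h
  rwa [norm_eq_of_coatom hs hM h (pcore_normal _ M)] at this

theorem exists_mul_of_sylow (hpq : ∀ r, r.Prime → r ∣ Nat.card G → r = p ∨ r = q) (hne : p ≠ q)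
    {S T : Subgroup G} (sylS : IsSylowOf p S ⊤) (sylT : IsSylowOf q T ⊤) (g : G) :
    ∃ s ∈ S, ∃ t ∈ T, s * t = g := by
  have h1 : IsPiHallOf {p}ᶜ T ⊤ := (pHall_congr fun r hr hd => by
    rw [card_top] at hd
    rcases hpq r hr hd with rfl | rfl
    · simp [hne]
    · simp [hne.symm]).1 sylT
  obtain ⟨⟨s, t⟩, h, -⟩ := (complIn_top_iff.1 (IsPiHallOf.complIn sylS h1)).existsUnique g
  exact ⟨s, s.2, t, t.2, h⟩

include hs h2 in
theorem matsuyama (hp : p.Prime) (hpq : ∀ r, r.Prime → r ∣ Nat.card G → r = p ∨ r = q) (hne : p ≠ q)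
    {S T O : Subgroup G} (sylS : IsSylowOf p S ⊤) (sylT : IsSylowOf q T ⊤) {y z : G}
    (hy : y ∈ 𝒞(T)) (hy1 : y ≠ 1) (hz : z ∈ 𝒞(S)) (hz1 : z ≠ 1) (pO : IsPGrp p O) (hzO : z ∈ O)
    (nO : y ∈ 𝒩(O)) : False := by
  have hcl : ∀ X : Subgroup G, ∀ a ∈ 𝒩(X), a ∈ 𝒩(closure {u | IsConj z u ∧ u ∈ X}) := by
    intro X a ha
    refine norm_closure (A := 𝒩(X)) (S := {u | IsConj z u ∧ u ∈ X})
      (fun b hb u hu => ⟨hu.1.trans (isConj_iff.2 ⟨b, rfl⟩), conj_mem_of_mem_norm hb hu.2⟩) ha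
  have hle : ∀ X : Subgroup G, closure {u | IsConj z u ∧ u ∈ X} ≤ X := fun X =>
    (closure_le _).2 fun u hu => hu.2
  have hidem : ∀ X : Subgroup G, closure {u | IsConj z u ∧ u ∈ X} ≤
      closure {u | IsConj z u ∧ u ∈ closure {u | IsConj z u ∧ u ∈ X}} := fun X =>
    closure_mono fun u hu => ⟨hu.1, subset_closure hu⟩
  obtain ⟨W, sW, ⟨pW, nW, gW⟩, maxW⟩ := exists_max_subgroup
    (P := fun W : Subgroup G => IsPGrp p W ∧ y ∈ 𝒩(W) ∧ W ≤ closure {u | IsConj z u ∧ u ∈ W})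
    ⟨pO.of_le (hle O), hcl O y nO, hidem O⟩
  have hzW : z ∈ W := sW (subset_closure ⟨IsConj.refl z, hzO⟩)
  obtain ⟨S₀, syl₀, sWS⟩ := sylow_superset hp pW le_top
  by_cases h : ∀ u, IsConj z u → u ∈ S₀ ⊓ 𝒩(W) → u ∈ W
  · have e : closure {u | IsConj z u ∧ u ∈ S₀ ⊓ 𝒩(W)} = W :=
      le_antisymm ((closure_le _).2 fun u hu => h u hu.1 hu.2)
        (gW.trans (closure_mono fun u hu => ⟨hu.1, sWS hu.2, le_normalizer hu.2⟩))
    have h1 : S₀ ⊓ 𝒩(W) = S₀ := nilpotent_sub_norm syl₀.pGrp.nil inf_le_left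
      (le_inf inf_le_left fun a ha => e ▸ hcl _ a ha.2)
    have h3 : normalClosure {y} ≤ 𝒩(W) := by
      refine (closure_le _).2 fun u hu => ?_
      obtain ⟨y', hy', hu'⟩ := Group.mem_conjugatesOfSet_iff.1 hu
      rw [show y' = y from hy'] at hu'
      obtain ⟨g, rfl⟩ := isConj_iff.1 hu'
      obtain ⟨s, hs, t, ht, rfl⟩ := exists_mul_of_sylow hpq hne syl₀ sylT g
      have : s * t * y * (s * t)⁻¹ = s * y * s⁻¹ := by
        rw [mul_assoc s t y, hy t ht]; group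
      rw [this]
      have hsN : s ∈ 𝒩(W) := (h1.ge hs).2
      exact mul_mem (mul_mem hsN nW) (inv_mem hsN)
    rcases hs (normalClosure {y}) (normal_iff_top_le_norm.1 inferInstance) with h4 | h4
    · have : y ∈ normalClosure {y} := subset_normalClosure rfl
      rw [h4] at this
      exact hy1 this
    · exact norm_ne_top hs (ne_bot_of_mem hzW hz1) (ne_top_of_sol hs h2 pW.sol) (top_le_iff.1 (h4.ge.trans h3))
  · push Not at h
    obtain ⟨u, hu, huN, huW⟩ := h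
    obtain ⟨g, rfl⟩ := isConj_iff.1 hu
    obtain ⟨s, hs, t, ht, e⟩ := exists_mul_of_sylow hpq hne sylS sylT g⁻¹
    have e1 : g * z * g⁻¹ = t⁻¹ * z * t⁻¹⁻¹ := by
      have : g = t⁻¹ * s⁻¹ := by rw [← mul_inv_rev, e, inv_inv]
      rw [this, mul_assoc t⁻¹ s⁻¹ z, hz _ (inv_mem hs)]; group
    have h1 : g * z * g⁻¹ ∈ O :^ t⁻¹ := e1 ▸ conj_mem_conjg _ hzO
    have h3 : y ∈ 𝒩(O :^ t⁻¹) := by
      rw [← conjg_norm]
      have := conj_mem_conjg t⁻¹ nO
      rwa [hy _ (inv_mem ht), mul_inv_cancel_right] at this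
    have h4 := maxW (W ⊔ closure {u | IsConj z u ∧ u ∈ O :^ t⁻¹ ⊓ 𝒩(W)})
      ⟨pW.sup ((pO.conjg _).of_le ((hle _).trans inf_le_left)) (Or.inr ((hle _).trans inf_le_right)),
        norm_sup (zpowers_le.2 nW) (zpowers_le.2 (hcl _ y
          (norm_inf (zpowers_le.2 h3) (norm_norm (zpowers_le.2 nW)) (mem_zpowers y)))) (mem_zpowers y),
        sup_le (gW.trans (closure_mono fun u hu => ⟨hu.1, mem_sup_left hu.2⟩))
          (closure_mono fun u hu => ⟨hu.1, mem_sup_right (subset_closure hu)⟩)⟩ le_sup_left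
    exact huW (h4.le (mem_sup_right (subset_closure ⟨hu, h1, huN.2⟩)))

include hs hsol h2 in
theorem not_two_primes (hp : p.Prime) (hq : q.Prime) (hne : p ≠ q)
    (hpq : ∀ r, r.Prime → r ∣ Nat.card G → r = p ∨ r = q) : False := by
  have key : ∀ {p q : ℕ}, p.Prime → p ≠ q → (∀ r, r.Prime → r ∣ Nat.card G → r = p ∨ r = q) →
      ∀ {T M : Subgroup G} {y : G}, IsSylowOf q T ⊤ → y ∈ 𝒞(T) → y ≠ 1 → IsCoatom M → y ∈ M →
      pCoreOf p M ≠ ⊥ → pPrimeCoreOf p M = ⊥ → False := by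
    intro p q hp hne hpq T M y sylT hy hy1 hM hyM h0 h1
    have pO := pcore_pGrp p M
    obtain ⟨S, sylS, sOS⟩ := sylow_superset hp pO le_top
    obtain ⟨z, hz, hz1⟩ := exists_mem_ne_one (center_nil_ne_bot sylS.pGrp.nil (ne_bot_mono sOS h0))
    have hzC : z ∈ 𝒞(pCoreOf p M) := cent_anti sOS hz.2
    have hzM : z ∈ M := (norm_eq_of_coatom hs hM h0 (pcore_normal _ M)).le (cent_le_norm _ hzC)
    exact matsuyama hs h2 hp hpq hne sylS sylT hy hy1 hz.2 hz1 pO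
      (cent_sub_pcore (hsol M hM.1) h1 ⟨hzM, hzC⟩) (pcore_norm _ M hyM)
  have hnt : ∀ {p q : ℕ}, (∀ r, r.Prime → r ∣ Nat.card G → r = p ∨ r = q) →
      ∀ {S : Subgroup G}, IsSylowOf p S ⊤ → S ≠ ⊥ := by
    intro p q hpq S sylS h
    have h1 : IsPiGrp {p}ᶜ (⊤ : Subgroup G) := (IsPiHallOf.eq_bot_iff sylS).1 h
    have h3 : IsPGrp q (⊤ : Subgroup G) := fun r hr hd =>
      (hpq r hr (by rwa [card_top] at hd)).resolve_left (h1 r hr hd)
    exact ne_top_of_sol hs h2 h3.sol rfl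
  have hqp : ∀ r, r.Prime → r ∣ Nat.card G → r = q ∨ r = p := fun r hr hd => (hpq r hr hd).symm
  obtain ⟨S, sylS⟩ := sylow_exists hp (⊤ : Subgroup G)
  obtain ⟨T, sylT⟩ := sylow_exists hq (⊤ : Subgroup G)
  obtain ⟨z, hz, hz1⟩ := exists_mem_ne_one (center_nil_ne_bot sylS.pGrp.nil (hnt hpq sylS))
  obtain ⟨y, hy, hy1⟩ := exists_mem_ne_one (center_nil_ne_bot sylT.pGrp.nil (hnt hqp sylT))
  obtain ⟨M, hM, sM⟩ := exists_coatom_ge (h2 z y)
  obtain ⟨r, hr, h0, h1⟩ := coatom_char hs hsol h2 hM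
  rcases hpq r hr (((pcore_pGrp r M).dvd_card h0).trans (card_subgroup_dvd_card _)) with rfl | rfl
  · exact key hp hne hpq sylT hy.2 hy1 hM (sM (mem_sup_right (mem_zpowers y))) h0 h1
  · exact key hq hne.symm hqp sylS hz.2 hz1 hM (sM (mem_sup_left (mem_zpowers z))) h0 h1

include hs hsol h2 in
theorem exists_prime_ge_five : ∃ p : ℕ, p.Prime ∧ 5 ≤ p ∧ p ∣ Nat.card G := by
  by_contra h
  refine not_two_primes hs hsol h2 Nat.prime_two Nat.prime_three (by decide) fun r hr hd => ?_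
  by_contra h1
  have h3 := hr.two_le
  have h4 : r ≠ 4 := by rintro rfl; exact absurd hr (by decide)
  exact h ⟨r, hr, by omega, hd⟩

end CA.TG.Two
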