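/-
Groups in which every two elements generate a solvable subgroup, part B: Sylow `p`-subgroups of a minimal
counterexample are cyclic for `p ≥ 5`.
-/
import Cfsg.Agent.TG.TwoA
import Cfsg.Agent.BG.I04

set_option autoImplicit false
set_option linter.unusedSectionVars false

namespace CA.TG.Two

open Subgroup Cfsg CA.FG CA.BG CA.BG.P06
open scoped commutatorElement

universe u

variable {G : Type u} [Group G] [Finite G] {p q : ℕ}
variable (hs : ∀ N : Subgroup G, ⊤ ≤ 𝒩(N) → N = ⊥ ∨ N = ⊤)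
  (hsol : ∀ H : Subgroup G, H ≠ ⊤ → Group.IsSolvable H)
  (h2 : ∀ x y : G, zpowers x ⊔ zpowers y ≠ ⊤)

theorem mem_pcore_of_pairs (hp : p.Prime) {H : Subgroup G} {d : G} (hd : d ∈ H)
    (h : ∀ g ∈ H, IsPGrp p (closure {d, g * d * g⁻¹})) : d ∈ pCoreOf p H := by
  refine baer_suzuki_of hp (K := {x | ∃ g ∈ H, g * d * g⁻¹ = x}) ?_ ?_ ?_ d ⟨1, one_mem _, by simp⟩
  · rintro _ ⟨g, hg, rfl⟩
    exact mul_mem (mul_mem hg hd) (inv_mem hg)
  · rintro a ha _ ⟨g, hg, rfl⟩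
    exact ⟨a * g, mul_mem ha hg, by group⟩
  · rintro _ ⟨a, ha, rfl⟩ _ ⟨b, hb, rfl⟩
    have h1 := (h (a⁻¹ * b) (mul_mem (inv_mem ha) hb)).conjg a
    rw [closure_pair, conjg_sup, conjg_zpowers, conjg_zpowers,
      show a * (a⁻¹ * b * d * (a⁻¹ * b)⁻¹) * a⁻¹ = b * d * b⁻¹ by group] at h1
    rwa [closure_pair]

include hs hsol h2 in
theorem cyclic_sylow (hp : p.Prime) (h5 : 5 ≤ p) {P : Subgroup G} (sylP : IsSylowOf p P ⊤) :
    IsCyclic P := by
  by_contra ncyc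
  have pP := sylP.pGrp
  have oddP : Odd (Nat.card P) := Nat.not_even_iff_odd.1 fun h =>
    (piGrp_compl_singleton_iff Nat.prime_two).1 (pP.piGrp (by simp; omega)) h.two_dvd
  obtain ⟨A, nsA, sAP, abA, oA⟩ := ex_odd_normal_p2Elem hp pP oddP ncyc
  have pA := pP.of_le sAP
  have cA := abA.1
  have ntA : A ≠ ⊥ := ne_bot_of_prime_dvd_card hp (oA ▸ dvd_pow_self p two_ne_zero)
  obtain ⟨d, ⟨hdA, -, hdC⟩, hd1⟩ := exists_mem_ne_one (meet_center_nil pP.nil nsA ntA)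
  have oD : ∀ a ∈ A, a ≠ 1 → Nat.card (zpowers a) = p := fun a ha h1 => by
    have : Fact p.Prime := ⟨hp⟩
    rw [Nat.card_zpowers]; exact orderOf_eq_prime (abA.2 a ha) h1
  have ncA : ¬ IsCyclic A := fun h => by
    obtain ⟨a, ha, e⟩ := cyclic_iff_eq_zpowers.1 h
    have h1 : a ≠ 1 := by rintro rfl; exact ntA (by rw [e, zpowers_one_eq_bot])
    have h3 := oD a ha h1
    rw [← e, oA] at h3
    nlinarith
  obtain ⟨e, heA, defA⟩ : ∃ e ∈ A, A ≤ zpowers d ⊔ zpowers e := by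
    have h1 := card_mul_relIndex (zpowers_le.2 hdA)
    rw [oD d hdA hd1, oA, pow_two, Nat.mul_right_inj hp.ne_zero] at h1
    have h3 := maximalIn_of_index_prime (zpowers_le.2 hdA) (h1.symm ▸ hp)
    obtain ⟨e, he, he'⟩ := SetLike.exists_of_lt h3.1
    refine ⟨e, he, ?_⟩
    by_contra h
    have h4 := h3.2 (zpowers d ⊔ zpowers e) le_sup_left
      (lt_of_le_not_ge (sup_le (zpowers_le.2 hdA) (zpowers_le.2 he)) h)
    exact he' (h4.le (mem_sup_right (mem_zpowers e)))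
  have hcon : ∀ {H S B : Subgroup G}, H ≠ ⊤ → pPrimeCoreOf p H = ⊥ → IsSylowOf p S H →
      IsMulCommutative B → B ⊲ S → B ≤ pCoreOf p H := by
    intro H S B h0 h1 sylS cB nsB
    have h3 := sol_p_abelian_constrained hp h5 (hsol H h0) S B sylS cB nsB
    have e : pPrimePCoreOf p H = pCoreOf p H := pcore2_of_eq_bot h1 _
    rwa [e] at h3
  have ha : ∀ a ∈ A, a ≠ 1 → A ≤ pCoreOf p 𝒞[a] := by
    intro a ha ha1
    have s0 : P ⊓ 𝒞(A) ≤ 𝒞[a] := inf_le_right.trans (cent_le_cent_singleton ha)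
    obtain ⟨S, sylS, sS⟩ := sylow_superset hp (pP.inf_left 𝒞(A)) s0
    have nsP0 : P ⊓ 𝒞(A) ⊲ S := by
      have h1 : Nat.card S ∣ Nat.card P := sylP.card_dvd sylS.piGrp le_top
      rw [← card_mul_relIndex sS, ← card_mul_relIndex (inf_le_left : P ⊓ 𝒞(A) ≤ P),
        Nat.mul_dvd_mul_iff_left Nat.card_pos, inf_comm P, inf_relIndex_right, inf_comm _ P] at h1
      have h3 := logn_quotient_cent_abelem hp nsA.2 abA oA.le
      obtain ⟨k, hk⟩ := (piNat_singleton_iff hp (relIndex_pos _ _).ne').1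
        (sylS.piGrp.relIndex (P ⊓ 𝒞(A)))
      rcases k with _ | _ | k
      · rw [pow_zero] at hk
        exact ⟨sS, norm_of_le (relIndex_eq_one.1 hk)⟩
      · rw [zero_add, pow_one] at hk
        exact normal_of_index_eq_of_pGrp hp sylS.pGrp sS hk
      · exact absurd ((pow_dvd_pow p (by omega)).trans (hk ▸ h1)) h3
    have sA0 : A ≤ P ⊓ 𝒞(A) := le_inf sAP (abelian_iff_le_cent.1 cA)
    exact (le_inf sA0 (le_cent_symm inf_le_right)).trans
      (hcon (cent1_ne_top hs h2 ha1) (p'core_cent1 hs hsol h2 (pA.piElt ha) ha1) sylS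
        (abelian_inf_cent _) ((charIn_center _).trans_normal nsP0))
  have hb : ∀ M, IsCoatom M → A ≤ M → pPrimeCoreOf p M = ⊥ := by
    intro M hM sAM
    obtain ⟨r, hr, h0, h1⟩ := coatom_char hs hsol h2 hM
    by_cases hrp : r = p
    · rwa [← hrp]
    have rY := pcore_pGrp r M
    have nYA : A ≤ 𝒩(pCoreOf r M) := sAM.trans (pcore_norm _ M)
    have co := rY.coprime_of_ne pA hrp
    have h3 : pCoreOf r M ≤ 𝒞(A) := coprime_abelian_gen_cent1_le cA ncA nYA co fun a haA ha1 => by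
      rw [← comm_eq_bot_iff, eq_bot_iff, ← inf_eq_bot_of_cop (rY.coprime_of_ne (pcore_pGrp p 𝒞[a]) hrp)]
      refine le_inf ((commutator_mono inf_le_left le_rfl).trans (comm_le_left nYA)) ?_
      exact (commutator_mono inf_le_right (ha a haA ha1)).trans (comm_le_right (pcore_norm _ _))
    have h4 := (le_inf sAM (le_cent_symm h3)).trans (cent_sub_pcore (hsol M hM.1) h1)
    exact absurd (inf_eq_bot_of_cop co) (by rw [inf_eq_right.2 h4]; exact ntA)
  have hc : ∀ M R, IsCoatom M → A ≤ R → IsSylowOf p R M → 𝒩(𝒵(puigOf R)) = M := by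
    intro M R hM sAR sylR
    exact norm_eq_of_coatom hs hM (fun h => ne_bot_mono sAR ntA (trivg_center_Puig_pgroup sylR.pGrp h))
      (sol_Puig_center_normal hp h5 (hsol M hM.1) sylR (hb M hM (sAR.trans sylR.le)))
  have uniq : ∀ M₁ M₂, IsCoatom M₁ → IsCoatom M₂ → A ≤ M₁ → A ≤ M₂ → M₁ = M₂ := by
    intro M₁ M₂ hM₁ hM₂ s₁ s₂
    by_contra hne
    obtain ⟨R, sAR, ⟨pR, M₁, M₂, hM₁, hM₂, hne, s₁, s₂⟩, maxR⟩ := exists_max_subgroup
      (P := fun R : Subgroup G => IsPGrp p R ∧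
        ∃ M₁ M₂, IsCoatom M₁ ∧ IsCoatom M₂ ∧ M₁ ≠ M₂ ∧ R ≤ M₁ ∧ R ≤ M₂)
      ⟨pA, M₁, M₂, hM₁, hM₂, hne, s₁, s₂⟩
    by_cases sylR : IsSylowOf p R ⊤
    · exact hne ((hc M₁ R hM₁ sAR (sylR.of_le s₁ le_top)).symm.trans
        (hc M₂ R hM₂ sAR (sylR.of_le s₂ le_top)))
    obtain ⟨M₃, hM₃, s₃⟩ := exists_coatom_ge
      (norm_ne_top hs (ne_bot_mono sAR ntA) (ne_top_of_sol hs h2 pR.sol))
    have h : ∀ M, IsCoatom M → R ≤ M → M = M₃ := by
      intro M hM sRM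
      obtain ⟨T, sylT, sRT⟩ := sylow_superset hp pR sRM
      rcases sRT.lt_or_eq with h | h
      · by_contra hne
        exact (nilpotent_proper_norm sylT.pGrp.nil h).ne' (maxR _ ⟨sylT.pGrp.inf_left _, M, M₃, hM, hM₃,
          hne, inf_le_left.trans sylT.le, inf_le_right.trans s₃⟩ (le_inf sRT le_normalizer))
      · subst h
        refine absurd (sylT.of_norm_le hp le_top (inf_le_right.trans ?_)) sylR
        rw [← hc M R hM sAR sylT]
        exact (center_Puig_char R).norm_le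
    exact hne ((h M₁ hM₁ s₁).trans (h M₂ hM₂ s₂).symm)
  obtain ⟨M, hM, sPM⟩ := exists_coatom_ge (ne_top_of_sol hs h2 pP.sol)
  have hdO : d ∈ pCoreOf p M :=
    hcon hM.1 (hb M hM (sAP.trans sPM)) (sylP.of_le sPM le_top) cA nsA hdA
  have hex : ∃ g, ¬ IsPGrp p (closure {d, g * d * g⁻¹}) := by
    by_contra h
    push Not at h
    have h1 := mem_pcore_of_pairs hp (mem_top d) fun g _ => h g
    rcases hs _ (pcore_norm {p} (⊤ : Subgroup G)) with h3 | h3
    · exact ne_bot_of_mem h1 hd1 h3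
    · exact ne_top_of_sol hs h2 (pcore_pGrp p ⊤).sol h3
  obtain ⟨g, hg⟩ := hex
  obtain ⟨_, -, ⟨g, rfl, hg⟩, minL⟩ := exists_min_subgroup
    (P := fun L : Subgroup G => ∃ g, L = closure {d, g * d * g⁻¹} ∧ ¬ IsPGrp p L) ⟨g, rfl, hg⟩
  have hdL : d ∈ closure {d, g * d * g⁻¹} := subset_closure (by simp)
  have hgL : g * d * g⁻¹ ∈ closure {d, g * d * g⁻¹} := subset_closure (by simp)
  have hex : ∃ h ∈ closure {d, g * d * g⁻¹}, ¬ IsPGrp p (closure {d, h * d * h⁻¹}) := by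
    by_contra h
    push Not at h
    have h1 := mem_pcore_of_pairs hp hdL h
    refine hg (IsPiGrp.of_le ((pcore_pGrp p (closure {d, g * d * g⁻¹})).sup
      (piGrp_zpowers_iff.2 ((pA.piElt hdA).conj g)) (Or.inr (zpowers_le.2 (pcore_norm _ _ hgL)))) ?_)
    exact (closure_pair _ _).le.trans (sup_le_sup_right (zpowers_le.2 h1) _)
  obtain ⟨h, hh, hh'⟩ := hex
  have e1 := minL _ ⟨h, rfl, hh'⟩ ((closure_pair _ _).le.trans
    (sup_le (zpowers_le.2 hdL) (zpowers_le.2 (mul_mem (mul_mem hh hdL) (inv_mem hh)))))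
  rw [← e1] at hh
  obtain ⟨M', hM', sK⟩ := exists_coatom_ge (h2 d (h * e))
  have hdK : d ∈ M' := sK (mem_sup_left (mem_zpowers d))
  have heK : h * e ∈ M' := sK (mem_sup_right (mem_zpowers _))
  have hhK : h ∈ M' := by
    refine ((closure_pair _ _).le.trans (sup_le (zpowers_le.2 hdK) (zpowers_le.2 ?_))) hh
    have h1 := mul_mem (mul_mem heK hdK) (inv_mem heK)
    rwa [mul_assoc h e d, hdC e (sAP heA), show h * (d * e) * (h * e)⁻¹ = h * d * h⁻¹ by group] at h1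
  have h3 : M' = M := uniq _ _ hM' hM (defA.trans (sup_le (zpowers_le.2 hdK)
    (zpowers_le.2 (by simpa using mul_mem (inv_mem hhK) heK)))) (sAP.trans sPM)
  subst h3
  exact hh' ((pcore_pGrp p M').of_le ((closure_pair _ _).le.trans (sup_le (zpowers_le.2 hdO)
    (zpowers_le.2 (conj_mem_of_mem_norm (pcore_norm _ _ hhK) hdO)))))

end CA.TG.Two
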