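/-
Groups in which every two elements generate a solvable subgroup, part C: cyclic Sylow subgroups, and the
theorem.
-/
import Cfsg.Agent.TG.TwoB
import Cfsg.Agent.BG.I03

set_option autoImplicit false
set_option linter.unusedSectionVars false

namespace CA.TG.Two

open Subgroup Cfsg CA.FG CA.BG CA.BG.P06
open scoped commutatorElement

universe u

variable {G : Type u} [Group G] [Finite G] {p q : ℕ}
variable (hs : ∀ N : Subgroup G, ⊤ ≤ 𝒩(N) → N = ⊥ ∨ N = ⊤)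
  (hsol : ∀ H : Subgroup G, H ≠ ⊤ → Group.IsSolvable H)
  (h2 : ∀ x y : G, zpowers x ⊔ zpowers y ≠ ⊤)
  (hp : p.Prime) (hcyc : ∀ P : Subgroup G, IsPGrp p P → IsCyclic P)

include hp in
theorem exists_gen {D : Subgroup G} (oD : Nat.card D = p) : ∃ d, d ≠ 1 ∧ D = zpowers d := by
  obtain ⟨d, hd, hd1⟩ := exists_mem_ne_one (ne_bot_of_card_prime (oD ▸ hp))
  exact ⟨d, hd1, eq_zpowers_of_card_prime (oD ▸ hp) hd hd1⟩

include hs hsol h2 hp hcyc in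
theorem cent_pGrp {D : Subgroup G} (oD : Nat.card D = p) : IsPGrp p 𝒞(D) := by
  have pD := pGrp_of_card_eq hp oD
  obtain ⟨d, hd1, rfl⟩ := exists_gen hp oD
  rw [cent_zpowers, IsPGrp, IsPiGrp, ← relIndex_bot_left]
  refine piNat_relIndex_of_forall_le fun Q sQ p'Q => ?_
  have pO := pcore_pGrp p 𝒞[d]
  have cO := hcyc _ pO
  have sDO : zpowers d ≤ pCoreOf p 𝒞[d] :=
    pcore_max ⟨zpowers_le.2 (mem_cent_singleton_self d), norm_zpowers_of_cent le_rfl⟩ pD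
  have h1 : ohm1 p (pCoreOf p 𝒞[d]) ≤ zpowers d := (closure_le _).2 fun x hx =>
    le_of_cyclic_of_card_dvd cO (zpowers_le.2 hx.1) sDO
      (by rw [oD, Nat.card_zpowers]; exact orderOf_dvd_of_pow_eq_one hx.2) (mem_zpowers x)
  have h3 := coprime_abelian_pgroup_faithful_Ohm1 pO (sQ.trans (pcore_norm _ _)) (pO.coprime p'Q)
    (abelian_of_cyclic cO) ((sQ.trans (cent_zpowers d).ge).trans (cent_anti h1))
  have h4 := (le_inf sQ h3).trans (cent_sub_pcore (hsol _ (cent1_ne_top hs h2 hd1))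
    (p'core_cent1 hs hsol h2 (piGrp_zpowers_iff.1 pD) hd1))
  exact ((pO.of_le h4).eq_bot p'Q).le

include hs hsol h2 hp hcyc in
theorem inf_cent_eq_bot {D W : Subgroup G} (oD : Nat.card D = p) (p'W : IsPiGrp {p}ᶜ W) :
    W ⊓ 𝒞(D) = ⊥ := by
  rw [inf_comm]; exact (cent_pGrp hs hsol h2 hp hcyc oD).inf_eq_bot p'W

include hsol hp hcyc in
theorem sup_normal {D H : Subgroup G} (oD : Nat.card D = p) (sDH : D ≤ H) (hH : H ≠ ⊤) :
    pPrimeCoreOf p H ⊔ D ⊲ H := by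
  obtain ⟨S, sylS, sDS⟩ := sylow_superset hp (pGrp_of_card_eq hp oD) sDH
  have cS := hcyc S sylS.pGrp
  have nsO := pcore2_normal {p}ᶜ {p} H
  have sylT := sylS.inf_normal nsO
  have h1 := (frattini_arg hp nsO sylT).ge
  rw [← pcore_sup_eq_pcore2 sylT] at h1
  have h3 : S ≤ pPrimePCoreOf p H := (le_inf sylS.le ((abelian_iff_le_cent.1 (abelian_of_cyclic cS)).trans
    (cent_anti inf_le_left))).trans (solvable_p_constrained p (hsol H hH) _ sylT)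
  have e : S ⊓ piCore2Of {p}ᶜ {p} H = S := inf_eq_left.2 h3
  have h4 : 𝒩(S) ≤ 𝒩(D) := norm_le_norm_of_cyclic cS sDS
  refine ⟨sup_le (pcore_le _ _) sDH, h1.trans ?_⟩
  rw [pcore_sup_eq_pcore2 sylT, e, ← pcore_sup_eq_pcore2 sylT, e]
  exact sup_le (sup_le (norm_of_le le_sup_left)
    (norm_sup (sylS.le.trans (pcore_norm _ _)) (le_normalizer.trans h4)))
    (norm_sup (inf_le_left.trans (pcore_norm _ _)) (inf_le_right.trans h4))

include hp hcyc in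
theorem exists_conj {D E H : Subgroup G} (oD : Nat.card D = p) (oE : Nat.card E = p) (sDH : D ≤ H)
    (sEH : E ≤ H) : ∃ h ∈ H, E = D :^ h := by
  obtain ⟨S, sylS, sDS⟩ := sylow_superset hp (pGrp_of_card_eq hp oD) sDH
  obtain ⟨h, hh, sE⟩ := sylow_subJ hp sylS (pGrp_of_card_eq hp oE) sEH
  exact ⟨h, hh, eq_of_cyclic_of_card_eq (hcyc _ (sylS.piGrp.conjg h)) sE (conjg_mono h sDS)
    (by rw [card_conjg, oD, oE])⟩

include hs hsol h2 hp hcyc in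
theorem le_p'core {D H W : Subgroup G} (oD : Nat.card D = p) (sDH : D ≤ H) (hH : H ≠ ⊤)
    (p'W : IsPiGrp {p}ᶜ W) (nW : D ≤ 𝒩(W)) (sWH : W ≤ H) : W ≤ pPrimeCoreOf p H := by
  have pD := pGrp_of_card_eq hp oD
  have ns := sup_normal hsol hp hcyc oD sDH hH
  have h1 := coprime_cent_prod nW (pD.coprime p'W).symm (Or.inr pD.sol)
  rw [inf_cent_eq_bot hs hsol h2 hp hcyc oD p'W, sup_bot_eq] at h1
  have h3 : W ≤ pPrimeCoreOf p H ⊔ D :=
    h1.ge.trans ((commutator_mono sWH le_sup_right).trans (comm_le_right ns.2))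
  have h4 : IsPiHallOf {p}ᶜ (pPrimeCoreOf p H) (pPrimeCoreOf p H ⊔ D) :=
    pHall_left_of_sup (Or.inr (sDH.trans (pcore_norm _ _))) rfl (pcore_piGrp _ _) (piNat_compl_compl.2 pD)
  exact h4.le_of_normal (ns.1.trans (pcore_norm _ _)) p'W h3

include hp in
theorem p'grp_ne_top {D W : Subgroup G} (oD : Nat.card D = p) (p'W : IsPiGrp {p}ᶜ W) : W ≠ ⊤ := by
  rintro rfl
  exact ne_bot_of_card_prime (oD ▸ hp) ((pGrp_of_card_eq hp oD).eq_bot (p'W.of_le le_top))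

include hs hsol h2 hp hcyc in
theorem inv_nil {D W : Subgroup G} (oD : Nat.card D = p) (p'W : IsPiGrp {p}ᶜ W) (nW : D ≤ 𝒩(W)) :
    Group.IsNilpotent W :=
  prime_regular_sol_nil nW (hsol W (p'grp_ne_top hp oD p'W)) (oD ▸ hp)
    (inf_cent_eq_bot hs hsol h2 hp hcyc oD p'W)

include hs hsol h2 hp hcyc in
theorem inv_sup {D W₁ W₂ : Subgroup G} (oD : Nat.card D = p) (p₁ : IsPiGrp {p}ᶜ W₁) (n₁ : D ≤ 𝒩(W₁))
    (p₂ : IsPiGrp {p}ᶜ W₂) (n₂ : D ≤ 𝒩(W₂)) (h0 : W₁ ⊓ W₂ ≠ ⊥) : IsPiGrp {p}ᶜ (W₁ ⊔ W₂) := by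
  by_contra hn
  obtain ⟨_, sI, ⟨W₁, W₂, p₁, n₁, p₂, n₂, hn, rfl⟩, maxI⟩ := exists_max_subgroup
    (P := fun I : Subgroup G => ∃ W₁ W₂ : Subgroup G, IsPiGrp {p}ᶜ W₁ ∧ D ≤ 𝒩(W₁) ∧ IsPiGrp {p}ᶜ W₂ ∧
      D ≤ 𝒩(W₂) ∧ ¬ IsPiGrp {p}ᶜ (W₁ ⊔ W₂) ∧ I = W₁ ⊓ W₂) ⟨W₁, W₂, p₁, n₁, p₂, n₂, hn, rfl⟩
  have h0' := ne_bot_mono sI h0
  have nI : D ≤ 𝒩(W₁ ⊓ W₂) := norm_inf n₁ n₂
  have hH := norm_ne_top hs h0' (p'grp_ne_top hp oD (p₁.inf_left W₂))
  have hO : ∀ W, IsPiGrp {p}ᶜ W → D ≤ 𝒩(W) → W₁ ⊓ W₂ < W →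
      W₁ ⊓ W₂ < W ⊓ pPrimeCoreOf p 𝒩(W₁ ⊓ W₂) := fun W pW nW h =>
    (nilpotent_proper_norm (inv_nil hs hsol h2 hp hcyc oD pW nW) h).trans_le (le_inf inf_le_left
      (le_p'core hs hsol h2 hp hcyc oD nI hH (pW.inf_left _) (norm_inf nW (norm_norm nI)) inf_le_right))
  have l₁ := hO W₁ p₁ n₁ (lt_of_le_of_ne inf_le_left fun h => hn (by
    rwa [sup_eq_right.2 (h.ge.trans inf_le_right)]))
  have l₂ := hO W₂ p₂ n₂ (lt_of_le_of_ne inf_le_right fun h => hn (by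
    rwa [sup_eq_left.2 (h.ge.trans inf_le_left)]))
  have pO := pcore_piGrp {p}ᶜ 𝒩(W₁ ⊓ W₂)
  have nO : D ≤ 𝒩(pPrimeCoreOf p 𝒩(W₁ ⊓ W₂)) := nI.trans (pcore_norm _ _)
  have h1 : IsPiGrp {p}ᶜ (W₁ ⊔ pPrimeCoreOf p 𝒩(W₁ ⊓ W₂)) := by
    by_contra h
    exact l₁.ne' (maxI _ ⟨_, _, p₁, n₁, pO, nO, h, rfl⟩ l₁.le)
  have l₃ : W₁ ⊓ W₂ < W₂ ⊓ (W₁ ⊔ pPrimeCoreOf p 𝒩(W₁ ⊓ W₂)) :=
    l₂.trans_le (inf_le_inf_left _ le_sup_right)
  have h3 : IsPiGrp {p}ᶜ (W₂ ⊔ (W₁ ⊔ pPrimeCoreOf p 𝒩(W₁ ⊓ W₂))) := by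
    by_contra h
    exact l₃.ne' (maxI _ ⟨_, _, p₂, n₂, h1, norm_sup n₁ nO, h, rfl⟩ l₃.le)
  exact hn (h3.of_le (sup_le (le_sup_left.trans le_sup_right) le_sup_left))

include hs hsol h2 hp hcyc in
theorem exists_max_inv {D W : Subgroup G} (oD : Nat.card D = p) (p'W : IsPiGrp {p}ᶜ W) (nW : D ≤ 𝒩(W)) :
    ∃ Y, W ≤ Y ∧ IsPiGrp {p}ᶜ Y ∧ 𝒩(D) ≤ 𝒩(Y) ∧
      ∀ V, IsPiGrp {p}ᶜ V → D ≤ 𝒩(V) → (Y ≤ V ∨ Y ⊓ V ≠ ⊥ ∨ V ≤ 𝒩(Y)) → V ≤ Y := by
  obtain ⟨Y, sWY, ⟨pY, nY⟩, maxY⟩ := exists_max_subgroup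
    (P := fun Y : Subgroup G => IsPiGrp {p}ᶜ Y ∧ D ≤ 𝒩(Y)) ⟨p'W, nW⟩
  have hM : ∀ V, IsPiGrp {p}ᶜ V → D ≤ 𝒩(V) → (Y ≤ V ∨ Y ⊓ V ≠ ⊥ ∨ V ≤ 𝒩(Y)) → V ≤ Y := by
    intro V pV nV h
    refine le_sup_right.trans (maxY (Y ⊔ V) ⟨?_, norm_sup nY nV⟩ le_sup_left).le
    rcases h with h | h | h
    · rwa [sup_eq_right.2 h]
    · exact inv_sup hs hsol h2 hp hcyc oD pY nY pV nV h
    · exact pY.sup pV (Or.inr h)
  refine ⟨Y, sWY, pY, fun c hc => ?_, hM⟩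
  by_cases h0 : Y = ⊥
  · rw [h0]; exact norm_bot ⊤ trivial
  obtain ⟨y, hy, hy1⟩ := exists_mem_ne_one h0
  obtain ⟨d, hd1, rfl⟩ := exists_gen hp oD
  have hK := h2 d (y * c)
  have sD : zpowers d ≤ zpowers d ⊔ zpowers (y * c) := le_sup_left
  have hyc : y * c ∈ zpowers d ⊔ zpowers (y * c) := mem_sup_right (mem_zpowers _)
  generalize zpowers d ⊔ zpowers (y * c) = K at *
  have h1 : zpowers d :^ y ≤ K := by
    have := conjg_le_of_mem sD hyc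
    rwa [conjg_mul, conjg_of_mem_norm hc] at this
  have h3 : K ⊓ Y ≠ ⊥ := by
    refine ne_bot_of_mem (x := d⁻¹ * (y * d * y⁻¹))
      (mem_inf.2 ⟨mul_mem (inv_mem (sD (mem_zpowers d))) (h1 (conj_mem_conjg y (mem_zpowers d))), ?_⟩)
      fun h => ?_
    · have := mul_mem (conj_mem_of_mem_norm' (nY (mem_zpowers d)) hy) (inv_mem hy)
      simpa only [mul_assoc] using this
    · have h4 : y ∈ Y ⊓ 𝒞(zpowers d) := mem_inf.2 ⟨hy, by
        rw [cent_zpowers, mem_centralizer_singleton_iff]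
        rw [inv_mul_eq_one, eq_mul_inv_iff_mul_eq] at h
        exact h.symm⟩
      rw [inf_cent_eq_bot hs hsol h2 hp hcyc oD pY] at h4
      exact hy1 h4
  have h4 := le_p'core hs hsol h2 hp hcyc oD sD hK (pY.inf_right K) (norm_inf (norm_of_le sD) nY)
    inf_le_left
  have h5 : pPrimeCoreOf p K ≤ Y := hM _ (pcore_piGrp _ _) (sD.trans (pcore_norm _ _))
    (Or.inr (Or.inl (ne_bot_mono (le_inf inf_le_right h4) h3)))
  obtain ⟨w, hw, hw1⟩ := exists_mem_ne_one h3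
  refine mem_norm_of_conjg_le (hM _ (pY.conjg c) ?_ (Or.inr (Or.inl (ne_bot_of_mem
    (x := c * w * c⁻¹) (mem_inf.2 ⟨?_, conj_mem_conjg c hw.2⟩) (by simpa using hw1)))))
  · rw [← conjg_of_mem_norm hc]; exact conjg_le_norm_iff.2 nY
  · have := mul_mem (mul_mem (inv_mem hy) (h5 (conj_mem_of_mem_norm (pcore_norm _ _ hyc) (h4 hw)))) hy
    convert this using 1
    group

include hs hsol h2 hp hcyc in
theorem not_dvd_card : ¬ p ∣ Nat.card G := by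
  intro hd
  obtain ⟨D, -, oD⟩ := exists_le_card_eq_prime (H := (⊤ : Subgroup G)) hp (by rwa [card_top])
  have pD := pGrp_of_card_eq hp oD
  have hC := fun {W : Subgroup G} => inf_cent_eq_bot hs hsol h2 hp hcyc (W := W) oD
  obtain ⟨Y₁, -, p₁, n₁, max₁⟩ := exists_max_inv hs hsol h2 hp hcyc oD (piGrp_bot _) (norm_bot D)
  obtain ⟨d, hd1, defD⟩ := exists_gen hp oD
  have hdD : d ∈ D := defD ▸ mem_zpowers d
  have hK : ∀ {E : Subgroup G}, Nat.card E = p → ∀ g, E ⊔ zpowers g ≠ ⊤ := fun oE g => by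
    obtain ⟨e, -, rfl⟩ := exists_gen hp oE
    exact h2 e g
  obtain ⟨W, pW, nW, hW⟩ : ∃ W, IsPiGrp {p}ᶜ W ∧ D ≤ 𝒩(W) ∧ ¬ W ≤ Y₁ := by
    by_contra h
    push Not at h
    have h1 : ⨆ g, D :^ g ≤ Y₁ ⊔ D := iSup_le fun g =>
      (conjg_le_of_mem_norm le_sup_right ((sup_normal hsol hp hcyc oD le_sup_left (hK oD g)).2
        (mem_sup_right (mem_zpowers g)))).trans (sup_le_sup_right
          (h _ (pcore_piGrp _ _) (le_sup_left.trans (pcore_norm _ _))) D)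
    rcases hs (⨆ g, D :^ g) (le_norm_of_conjg_le fun a _ => by
      rw [conjg_iSup]
      exact iSup_le fun g => (conjg_mul D g a).ge.trans (le_iSup (fun g => D :^ g) _)) with h3 | h3
    · exact ne_bot_of_card_prime (oD ▸ hp)
        (le_bot_iff.1 (((conjg_one D).ge.trans (le_iSup (fun g => D :^ g) 1)).trans h3.le))
    · exact ne_top_of_sol hs h2 (sol_sup (hsol _ (p'grp_ne_top hp oD p₁)) pD.sol
        (Or.inr (le_normalizer.trans n₁))) (top_le_iff.1 (h3.ge.trans h1))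
  obtain ⟨Y₂, sW, p₂, n₂, max₂⟩ := exists_max_inv hs hsol h2 hp hcyc oD pW nW
  have nD₁ : D ≤ 𝒩(Y₁) := le_normalizer.trans n₁
  have nD₂ : D ≤ 𝒩(Y₂) := le_normalizer.trans n₂
  have ti : Y₁ ⊓ Y₂ = ⊥ := by
    by_contra h
    exact hW (sW.trans (max₁ _ p₂ nD₂ (Or.inr (Or.inl h))))
  have nt₁ : Y₁ ≠ ⊥ := fun h => hW (sW.trans (max₁ _ p₂ nD₂ (Or.inl (h.le.trans bot_le))))
  have nt₂ : Y₂ ≠ ⊥ := fun h => hW (sW.trans (h.le.trans bot_le))
  obtain ⟨S, sylS, sDS⟩ := sylow_superset hp pD le_top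
  have cS := hcyc S sylS.pGrp
  obtain ⟨s, hs', hsp, hsd⟩ : ∃ s : ℕ, s.Prime ∧ s ≠ p ∧ s ∣ Nat.card 𝒩(S) := by
    by_contra h
    push Not at h
    have h1 : IsPGrp p 𝒩(S) := fun s hs hd => by_contra fun hne => h s hs hne hd
    have h3 := Burnside_normal_complement hp sylS (inf_le_right.trans
      ((sylS.le_of_le_norm h1 le_top le_rfl).trans (abelian_iff_le_cent.1 (abelian_of_cyclic cS))))
    rcases hs _ (pcore_norm {p}ᶜ (⊤ : Subgroup G)) with h4 | h4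
    · have h5 := h3.sup_eq
      rw [show pPrimeCoreOf p (⊤ : Subgroup G) = ⊥ from h4, bot_sup_eq] at h5
      exact ne_top_of_sol hs h2 sylS.pGrp.sol h5
    · exact p'grp_ne_top hp oD (pcore_piGrp _ _) h4
  obtain ⟨c, hc, oc⟩ := exists_mem_orderOf_eq hs' hsd
  have hcD : c ∈ 𝒩(D) := norm_le_norm_of_cyclic cS sDS hc
  have oC : Nat.card (zpowers c) = s := by rw [Nat.card_zpowers, oc]
  have p'C : IsPiGrp {p}ᶜ (zpowers c) := (pGrp_of_card_eq hs' oC).piGrp hsp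
  have nR : D ⊔ zpowers c ≤ 𝒩(D) := sup_le le_normalizer (zpowers_le.2 hcD)
  obtain ⟨x, hxR, hx1, hx⟩ : ∃ x ∈ D ⊔ zpowers c, x ≠ 1 ∧ Y₁ ⊓ 𝒞[x] ≠ ⊥ := by
    by_contra h
    push Not at h
    have h1 := regular_pq_group_cyclic hp hs' hsp.symm (R := D ⊔ zpowers c) (by
      rw [card_sup_of_inf_eq_bot (Or.inr (zpowers_le.2 hcD)) (pD.inf_eq_bot p'C), oD, oC]) nt₁
      (nR.trans n₁) h
    have h3 : zpowers c ≤ 𝒞(D) :=
      le_sup_right.trans ((abelian_iff_le_cent.1 (abelian_of_cyclic h1)).trans (cent_anti le_sup_left))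
    exact ne_bot_of_card_prime (oC ▸ hs') (le_bot_iff.1 ((le_inf le_rfl h3).trans (hC p'C).le))
  have hxN : x ∈ 𝒩(D) := nR hxR
  have hxC : x ∉ 𝒞(D) := fun h => by
    have h1 : IsPiHallOf {p} D (D ⊔ zpowers c) := pHall_left_of_sup (Or.inr (zpowers_le.2 hcD)) rfl pD p'C
    have h3 := h1.mem_of_normal nR ((cent_pGrp hs hsol h2 hp hcyc oD).piElt h) hxR
    rw [← cent_eq_cent_singleton_of_prime (oD ▸ hp) h3 hx1] at hx
    exact hx (hC p₁)
  obtain ⟨k, ⟨hk, hkx⟩, hk1⟩ := exists_mem_ne_one hx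
  have hkx' : k * x = x * k := mem_centralizer_singleton_iff.1 hkx
  have cent : x ∈ 𝒞(Y₂) := by
    intro u hu
    have oD' : Nat.card (D :^ k) = p := by rw [card_conjg, oD]
    have oE : Nat.card (D :^ u) = p := by rw [card_conjg, oD]
    obtain ⟨h, hh, e⟩ := exists_conj hp hcyc oD' oE (le_sup_left : _ ≤ D :^ k ⊔ D :^ u) le_sup_right
    have hK' := hK oD' (h * x)
    have sD' : D :^ k ≤ D :^ k ⊔ zpowers (h * x) := le_sup_left
    have hhx : h * x ∈ D :^ k ⊔ zpowers (h * x) := mem_sup_right (mem_zpowers _)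
    generalize D :^ k ⊔ zpowers (h * x) = K at *
    have sE : D :^ u ≤ K := by
      have := conjg_le_of_mem sD' hhx
      rwa [conjg_mul, ← conjg_mul D k x, ← hkx', conjg_mul, conjg_of_mem_norm hxN, ← e] at this
    have hxK : x ∈ K := by simpa using mul_mem (inv_mem (sup_le sD' sE hh)) hhx
    have nE₂ : D :^ u ≤ 𝒩(Y₂) := conjg_le_of_mem nD₂ (le_normalizer hu)
    have ti₂ : K ⊓ Y₂ = ⊥ := by
      by_contra h0
      have h1 := le_p'core hs hsol h2 hp hcyc oE sE hK' (p₂.inf_right K) (norm_inf (norm_of_le sE) nE₂)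
        inf_le_left
      have nO : D :^ u ≤ 𝒩(pPrimeCoreOf p K) := sE.trans (pcore_norm _ _)
      have h3 := inv_sup hs hsol h2 hp hcyc oE p₂ nE₂ (pcore_piGrp _ K) nO
        (ne_bot_mono (le_inf inf_le_right h1) h0)
      have h4 : pPrimeCoreOf p K ≤ Y₂ := le_sup_right.trans (max₂ _ h3
        ((conjg_le_iff_of_mem_norm (le_normalizer (le_normalizer (mem_sup_left hu)))).1
          (norm_sup nE₂ nO)) (Or.inl le_sup_left))
      obtain ⟨g, hg, e'⟩ := exists_conj hp hcyc oE oD' sE sD'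
      have h5 : D :^ k ≤ 𝒩(Y₂) := e'.le.trans ((conjg_le_of_mem_norm le_sup_right
        ((sup_normal hsol hp hcyc oE sE hK').2 hg)).trans (sup_le (norm_of_le h4) nE₂))
      have h6 : Y₁ ⊓ 𝒩(Y₂) ≤ Y₂ :=
        max₂ _ (p₁.inf_left _) (norm_inf nD₁ (norm_norm nD₂)) (Or.inr (Or.inr inf_le_right))
      have h7 : d⁻¹ * (k * d * k⁻¹) ∈ Y₁ ⊓ Y₂ := by
        have h8 : d⁻¹ * (k * d * k⁻¹) ∈ Y₁ := by
          have := mul_mem (conj_mem_of_mem_norm' (nD₁ hdD) hk) (inv_mem hk)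
          simpa only [mul_assoc] using this
        exact ⟨h8, h6 (mem_inf.2 ⟨h8, mul_mem (inv_mem (nD₂ hdD)) (h5 (conj_mem_conjg k hdD))⟩)⟩
      rw [ti, mem_bot, inv_mul_eq_one, eq_mul_inv_iff_mul_eq] at h7
      have h9 : k ∈ Y₁ ⊓ 𝒞(D) := ⟨hk, by
        rw [defD, cent_zpowers]; exact mem_centralizer_singleton_iff.2 h7.symm⟩
      rw [hC p₁] at h9
      exact hk1 h9
    have hδ : x * d * x⁻¹ ∈ D := conj_mem_of_mem_norm hxN hdD
    have hv : x * u * x⁻¹ ∈ Y₂ := conj_mem_of_mem_norm (n₂ hxN) hu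
    have h1 : (u * (x * d * x⁻¹) * u⁻¹)⁻¹ * (x * (u * d * u⁻¹) * x⁻¹) ∈ K ⊓ Y₂ := by
      refine mem_inf.2 ⟨mul_mem (inv_mem (sE (conj_mem_conjg u hδ)))
        (mul_mem (mul_mem hxK (sE (conj_mem_conjg u hdD))) (inv_mem hxK)), ?_⟩
      have := mul_mem (mul_mem hu (conj_mem_of_mem_norm' (nD₂ hδ) (mul_mem (inv_mem hu) hv))) (inv_mem hv)
      convert this using 1
      group
    rw [ti₂, mem_bot, inv_mul_eq_one] at h1
    have h3 : u⁻¹ * (x * u * x⁻¹) ∈ Y₂ ⊓ 𝒞(D) := mem_inf.2 ⟨mul_mem (inv_mem hu) hv, by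
      rw [cent_eq_cent_singleton_of_prime (oD ▸ hp) hδ (by simpa using hd1)]
      refine mem_centralizer_singleton_iff.2 ?_
      calc u⁻¹ * (x * u * x⁻¹) * (x * d * x⁻¹)
          = u⁻¹ * (x * (u * d * u⁻¹) * x⁻¹) * (x * u * x⁻¹) := by group
        _ = _ := by rw [← h1]; group⟩
    rw [hC p₂, mem_bot, inv_mul_eq_one, eq_mul_inv_iff_mul_eq] at h3
    exact h3
  have h1 : ⁅D, zpowers x⁆ ≤ D ⊓ 𝒞(Y₂) := le_inf (comm_le_left (zpowers_le.2 hxN))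
    ((commutator_mono le_rfl (zpowers_le.2 cent)).trans (comm_le_right (norm_cent nD₂)))
  rcases inf_eq_bot_or_le_of_card_prime (oD ▸ hp) 𝒞(Y₂) with h | h
  · exact hxC (comm_eq_bot_iff'.1 (le_bot_iff.1 (h1.trans h.le)) (mem_zpowers x))
  · exact nt₂ (le_bot_iff.1 ((le_inf le_rfl (le_cent_symm h)).trans (hC p₂).le))

include hs hsol h2 in
theorem false_of_min : False := by
  obtain ⟨p, hp, h5, hd⟩ := exists_prime_ge_five hs hsol h2
  refine not_dvd_card hs hsol h2 hp (fun P pP => ?_) hd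
  obtain ⟨S, sylS, sPS⟩ := sylow_superset hp pP le_top
  exact cyclic_of_le (cyclic_sylow hs hsol h2 hp h5 sylS) sPS

omit [Finite G] in
theorem two_gen_map {G' : Type u} [Group G'] (f : G →* G') (hf : Function.Surjective f)
    (h : ∀ a b : G, Group.IsSolvable (closure ({a, b} : Set G))) (a b : G') :
    Group.IsSolvable (closure ({a, b} : Set G')) := by
  obtain ⟨a, rfl⟩ := hf a
  obtain ⟨b, rfl⟩ := hf b
  have := sol_map f (h a b)
  rwa [MonoidHom.map_closure, Set.image_pair] at this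

/-- A finite group in which every two elements generate a solvable subgroup is solvable. -/
theorem solvable_of_two_gen (h : ∀ a b : G, Group.IsSolvable (closure ({a, b} : Set G))) :
    Group.IsSolvable G := by
  induction hn : Nat.card G using Nat.strong_induction_on generalizing G with
  | _ n ih =>
  subst hn
  by_contra hG
  have hsol : ∀ H : Subgroup G, H ≠ ⊤ → Group.IsSolvable H := by
    intro H hH
    refine ih _ (by rw [← card_top (G := G)]; exact card_lt_of_lt hH.lt_top) (fun a b => ?_) rfl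
    rw [← sol_map_iff_of_inj H.subtype_injective, MonoidHom.map_closure, Set.image_pair]
    exact h _ _
  refine false_of_min (fun N nN => ?_) hsol fun x y e => hG ?_
  · by_contra hN
    push Not at hN
    have := normal_of_top_le_norm nN
    have h1 : Group.IsSolvable (G ⧸ N) := by
      refine ih _ ?_ (two_gen_map (QuotientGroup.mk' N) (QuotientGroup.mk'_surjective N) h) rfl
      rw [card_eq_card_quotient_mul_card_subgroup N]
      exact lt_mul_of_one_lt_right Nat.card_pos (one_lt_card hN.1)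
    have h3 := hsol N hN.2
    exact hG (Group.isSolvable_of_ker_le_range N.subtype (QuotientGroup.mk' N) (by simp))
  · rw [← sol_top_iff, ← e, ← closure_pair]
    exact h x y

end CA.TG.Two
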