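import Cfsg.Agent.TG.Cyc
import Cfsg.Agent.BG.Fcore
import Cfsg.Agent.BG.I03
import Cfsg.Prelude.Def_LieExceptional

/-!
# CN-groups (Gorenstein, Finite Groups, 14.1)
-/

set_option autoImplicit false
set_option linter.unusedSectionVars false

open Cfsg CA.FG CA.BG Subgroup

namespace CA.CN

universe u v

variable {G : Type u} [Group G] [Finite G]

theorem exists_center {H : Subgroup G} (nH : Group.IsNilpotent H) (h : H ≠ ⊥) :
    ∃ z ∈ H, z ≠ 1 ∧ H ≤ 𝒞[z] := by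
  obtain ⟨z, hz, z1⟩ := exists_mem_ne_one (center_nil_ne_bot nH h)
  exact ⟨z, hz.1, z1, mem_cent_iff_le_cent_singleton.1 hz.2⟩

theorem exists_lift_piElt {G' : Type v} [Group G'] (f : G →* G') {π : Set ℕ} {g : G} (h : IsPiElt π (f g)) :
    ∃ y ∈ zpowers g, IsPiElt π y ∧ f y = f g := by
  obtain ⟨y, z, hy, hz, py, pz, e, -⟩ := exists_piPart π g
  have : f z = 1 := (h.of_mem_zpowers (by rw [← MonoidHom.map_zpowers]; exact mem_map_of_mem f hz)).eq_one
    (pz.map f)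
  exact ⟨y, hy, py, by rw [e, map_mul, this, mul_one]⟩

section
variable (hCN : IsCNGroup G)
include hCN

theorem cent_of_comm {H K : Subgroup G} (nH : Group.IsNilpotent H) (nK : Group.IsNilpotent K)
    (co : (Nat.card K).Coprime (Nat.card H)) {x y : G} (hx : x ∈ H) (x1 : x ≠ 1) (hy : y ∈ K) (y1 : y ≠ 1)
    (c : y ∈ 𝒞[x]) : K ≤ 𝒞(H) := by
  obtain ⟨z, hz, z1, cz⟩ := exists_center nH (ne_bot_of_mem hx x1)
  obtain ⟨w, hw, w1, cw⟩ := exists_center nK (ne_bot_of_mem hy y1)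
  have key : ∀ {a b t : G}, a ∈ K → b ∈ H → t ≠ 1 → a ∈ 𝒞[t] → b ∈ 𝒞[t] → a ∈ 𝒞[b] :=
    fun ha hb t1 h1 h2 => mem_centralizer_singleton_iff.2 (nil_comm_of_coprime (hCN _ t1) h1 h2
      ((co.coprime_dvd_left (orderOf_dvd_card_of_mem ha)).coprime_dvd_right (orderOf_dvd_card_of_mem hb)))
  have h1 := key hy hz x1 c (mem_cent_singleton_comm.1 (cz hx))
  have h2 := key hw hz y1 (mem_cent_singleton_comm.1 (cw hy)) (mem_cent_singleton_comm.1 h1)
  exact sub_nilpotent_cent2 (hCN w w1) cw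
    (fun b hb => mem_cent_singleton_comm.1 (key hw hb z1 h2 (cz hb))) co

theorem cent_of_comm_mod {N H K : Subgroup G} (nH : Group.IsNilpotent H) (nK : Group.IsNilpotent K)
    (co : (Nat.card K).Coprime (Nat.card H)) (sN : N ≤ H) (nN : K ≤ 𝒩(N)) (K1 : K ≠ ⊥) {x : G} (hx : x ∈ H)
    (xN : x ∉ N) (c : ∀ a ∈ K, x⁻¹ * (a * x * a⁻¹) ∈ N) : K ≤ 𝒞(H) := by
  obtain ⟨r, hr, h⟩ := coprime_cent_coset nN (co.symm.coprime_dvd_left (card_dvd_of_le sN))
    (Or.inr (sol_of_nil nK)) c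
  obtain ⟨y, hy, y1⟩ := exists_mem_ne_one K1
  exact cent_of_comm hCN nH nK co (mul_mem hx (sN hr)) (fun e => xN (by
    rw [eq_inv_of_mul_eq_one_left e]; exact inv_mem hr)) hy y1 (mem_cent_iff_le_cent_singleton.1 h hy)

theorem CN_of_pGrp {G' : Type v} [Group G'] (f : G →* G') (hf : Function.Surjective f) {p : ℕ} (hp : p.Prime)
    (pk : IsPGrp p f.ker) : IsCNGroup G' := by
  have := Finite.of_surjective f hf
  intro g g1
  obtain ⟨a, ha, pa⟩ := exists_prime_orderOf_mem_zpowers g1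
  refine nil_of_le ?_ (cent_singleton_le_of_mem_zpowers ha)
  obtain ⟨g₀, rfl⟩ := hf a
  obtain ⟨x, -, qx, e⟩ := exists_lift_piElt f (π := {orderOf (f g₀)}) (g := g₀) (piNat_singleton_self pa)
  rw [← e] at pa qx ⊢
  have xk : x ∉ f.ker := fun h => pa.ne_one (by rw [h, orderOf_one])
  have nk : ∀ A : Subgroup G, A ≤ 𝒩(f.ker) := fun A => le_top.trans (normal_iff_top_le_norm.1 inferInstance)
  by_cases h : orderOf (f x) = p
  · rw [h] at qx
    obtain ⟨P, sP, hP⟩ := sylow_superset (M := (𝒞[f x]).comap f) hp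
      (IsPiGrp.sup pk (piGrp_zpowers_iff.2 qx) (Or.inr (nk _)))
      (sup_le (fun a ha => by simp [show f a = 1 from ha]) (zpowers_le.2 (mem_cent_singleton_self _)))
    have hx := hP (mem_sup_right (mem_zpowers x))
    obtain ⟨z, hz, z1, cz⟩ := exists_center sP.pGrp.nil (ne_bot_of_mem hx fun e => xk (e ▸ one_mem _))
    refine nil_of_le (nil_map f (hCN z z1)) ?_
    rw [← map_comap_eq_self_of_surjective hf 𝒞[f x]]
    refine map_mono (le_of_exists_sylow fun r hr hd => ?_)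
    by_cases e : r = p
    · exact ⟨P, e ▸ sP, cz⟩
    obtain ⟨R, sR⟩ := sylow_exists hr ((𝒞[f x]).comap f)
    refine ⟨R, sR, (cent_of_comm_mod hCN sP.pGrp.nil sR.pGrp.nil (sR.pGrp.coprime_of_ne sP.pGrp e)
      (le_sup_left.trans hP) (nk _) (sR.ne_bot' hr hd) hx xk fun a ha => ?_).trans (cent_le_cent_singleton hz)⟩
    simp [MonoidHom.mem_ker, mem_centralizer_singleton_iff.1 (sR.le ha)]
  · refine nil_of_le (nil_map f (hCN x fun e => xk (e ▸ one_mem _))) fun c hc => ?_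
    obtain ⟨c, rfl⟩ := hf c
    obtain ⟨r, hr, h1⟩ := coprime_cent_coset (A := zpowers x) (x := c) (nk _)
      (pk.coprime_of_ne (piGrp_zpowers_iff.2 qx) (Ne.symm h)) (Or.inl pk.sol) (by
        rintro _ ⟨k, rfl⟩
        have : Commute (f x ^ k) (f c) := (Commute.symm (mem_centralizer_singleton_iff.1 hc)).zpow_left k
        simp [MonoidHom.mem_ker, this.eq])
    exact ⟨c * r, cent_zpowers x ▸ h1, by rw [map_mul, show f r = 1 from hr, mul_one]⟩

end

theorem CN_of_sol {G' : Type v} [Group G'] (n : ℕ) : ∀ (G : Type u) [Group G] [Finite G], Nat.card G ≤ n →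
    IsCNGroup G → ∀ f : G →* G', Function.Surjective f → Group.IsSolvable f.ker → IsCNGroup G' := by
  induction n with
  | zero => intro G _ _ h; exact absurd Nat.card_pos (not_lt.2 h)
  | succ n ih =>
    intro G _ _ h hCN f hf sk
    by_cases k1 : f.ker = ⊥
    · exact CN_of_pGrp hCN f hf Nat.prime_two (k1 ▸ piGrp_bot _)
    obtain ⟨p, hp, N1⟩ := exists_pcore_ne_bot sk k1
    have nN : (pCoreOf p f.ker).Normal := normalIn_top.1 ((normalIn_top.2 inferInstance).pcore _)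
    refine ih (G ⧸ pCoreOf p f.ker) ?_ (CN_of_pGrp hCN (QuotientGroup.mk' _) (QuotientGroup.mk'_surjective _) hp
      (by rw [QuotientGroup.ker_mk']; exact pcore_pGrp _ _)) (QuotientGroup.lift _ f (pcore_le _ _))
      (QuotientGroup.lift_surjective_of_surjective _ _ hf _) ?_
    · have h1 := card_eq_card_quotient_mul_card_subgroup (pCoreOf p f.ker)
      have h2 := one_lt_card N1
      have h3 : 0 < Nat.card (G ⧸ pCoreOf p f.ker) := Nat.card_pos
      nlinarith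
    · rw [QuotientGroup.ker_lift]; exact sol_map _ sk

theorem unique_invol {K E : Subgroup G} (nK : E ≤ 𝒩(K)) (K1 : K ≠ ⊥) (reg : Semiregular K E) {s t : G}
    (hs : s ∈ E) (ht : t ∈ E) (os : orderOf s = 2) (ot : orderOf t = 2) : s = t := by
  have inv : ∀ t ∈ E, orderOf t = 2 → ∀ k ∈ K, t * k * t⁻¹ = k⁻¹ := fun t ht ot k hk => by
    let φ : K ≃* K := K.normalizerMonoidHom ⟨t, nK ht⟩
    have hφ : ∀ x : K, (φ x : G) = t * x * t⁻¹ := fun x => rfl
    have t2 : t * t = 1 := by rw [← sq, ← ot, pow_orderOf_eq_one]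
    have h1 : MonoidHom.FixedPointFree φ := fun x hx => Subtype.ext (mem_bot.1 (reg t ht
      (fun e => by simp [e] at ot) ▸ ⟨x.2, mem_centralizer_singleton_iff.2
        (mul_inv_eq_iff_eq_mul.1 ((hφ x).symm.trans (congrArg Subtype.val hx))).symm⟩))
    have h2 : Function.Involutive φ := fun x => Subtype.ext (by
      rw [hφ, hφ, show t * (t * x * t⁻¹) * t⁻¹ = t * t * x * (t * t)⁻¹ by group, t2]; simp)
    exact congrArg Subtype.val (congrFun (h1.coe_eq_inv_of_involutive h2) ⟨k, hk⟩)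
  by_contra ne
  refine K1 (eq_bot_iff.2 fun k hk => reg (t⁻¹ * s) (mul_mem (inv_mem ht) hs)
    (fun e => ne (inv_mul_eq_one.1 e).symm) ▸ ⟨hk, mem_centralizer_singleton_iff.2 ?_⟩)
  have := (inv s hs os k hk).trans (inv t ht ot k hk).symm
  calc k * (t⁻¹ * s) = t⁻¹ * (t * k * t⁻¹) * s := by group
    _ = t⁻¹ * s * k := by rw [← this]; group

variable (hCN : IsCNGroup G)
include hCN

theorem nil_of_regular {K E : Subgroup G} (nK : E ≤ 𝒩(K)) (K1 : K ≠ ⊥) (reg : Semiregular K E) :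
    Group.IsNilpotent E := by
  rcases Nat.even_or_odd (Nat.card E) with ev | od
  · obtain ⟨t, ht, ot⟩ := exists_mem_orderOf_eq Nat.prime_two ev.two_dvd
    refine nil_of_le (hCN t fun e => by simp [e] at ot) fun a ha => mem_centralizer_singleton_iff.2 ?_
    exact mul_inv_eq_iff_eq_mul.1 (unique_invol nK K1 reg (mul_mem (mul_mem ha ht) (inv_mem ha)) ht
      (by rw [orderOf_conj, ot]) ot)
  by_cases E1 : E = ⊥
  · exact E1 ▸ nil_of_cyclic cyclic_bot
  obtain ⟨q, hq, hd⟩ := exists_prime_dvd_card E1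
  obtain ⟨x, hx, ox⟩ := exists_mem_orderOf_eq hq hd
  have nrm : ∀ y ∈ E, (orderOf y).Prime → zpowers y ⊲ E := fun y hy h =>
    prime_odd_regular_normal (by rwa [Nat.card_zpowers]) od (zpowers_le.2 hy) K1 nK reg
  have x1 : x ≠ 1 := fun e => hq.ne_one (by rw [← ox, e, orderOf_one])
  have qx : IsPGrp q (zpowers x) := pGrp_of_card_eq hq (by rw [Nat.card_zpowers, ox])
  have nx := nrm x hx (ox ▸ hq)
  refine nil_of_le (hCN x x1) (le_of_forall_pElt fun r hr y hy ry => ?_)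
  have ry' : IsPGrp r (zpowers y) := piGrp_zpowers_iff.2 ry
  by_cases e : r = q
  · subst e
    have s : zpowers x ⊔ zpowers y ≤ E := sup_le nx.1 (zpowers_le.2 hy)
    exact mem_centralizer_singleton_iff.2 (abelian_iff_forall.1 (abelian_of_cyclic (odd_regular_pgroup_cyclic hr
      (IsPiGrp.sup qx ry' (Or.inr ((zpowers_le.2 hy).trans nx.2))) (odd_of_le od s) K1 (s.trans nK)
      (semiregularS reg le_rfl s))) _ (mem_sup_right (mem_zpowers y)) _ (mem_sup_left (mem_zpowers x)))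
  by_cases y1 : y = 1
  · exact y1 ▸ one_mem _
  obtain ⟨w, hw, pw⟩ := exists_prime_orderOf_mem_zpowers y1
  have nw := nrm w (zpowers_le.2 hy hw) pw
  have co := ry'.coprime_of_ne qx e
  rw [← cent_zpowers]
  refine cent_of_comm hCN qx.nil ry'.nil co (mem_zpowers x) x1 hw (fun e => pw.ne_one (by rw [e, orderOf_one])) ?_ (mem_zpowers y)
  rw [← cent_zpowers]
  exact le_cent_of_norm_of_coprime (nx.1.trans nw.2) (nw.1.trans nx.2)
    (co.coprime_dvd_left (card_dvd_of_le (zpowers_le.2 hw))) (mem_zpowers w)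

theorem Frob_of_normal_sylow (hnn : ¬ Group.IsNilpotent G) {p : ℕ} {P : Subgroup G}
    (sP : IsSylowOf p P ⊤) (P1 : P ≠ ⊥) (nP : ⊤ ≤ 𝒩(P)) :
    ∃ E, IsFrob ⊤ (fittingHall G) E ∧ Group.IsNilpotent E := by
  obtain ⟨z, hz, z1⟩ := exists_mem_ne_one (center_nil_ne_bot sP.pGrp.nil P1)
  set K := 𝒞(𝒵(P)) with hK
  have nK : ⊤ ≤ 𝒩(K) := norm_cent (norm_inf nP (norm_cent nP))
  have nilK : Group.IsNilpotent K := nil_of_le (hCN z z1) (cent_le_cent_singleton hz)
  have PK : P ≤ K := le_cent_symm inf_le_right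
  have key : ∀ {r : ℕ} {R : Subgroup G}, r.Prime → IsPGrp r R → ∀ y ∈ R, y ≠ 1 → ∀ x ∈ K, x ≠ 1 → y ∈ 𝒞[x] →
      R ≤ K := fun {r R} hr rR y hy y1 x hx x1 c => by
    by_cases e : r = p
    · exact (sP.le_of_normal nP (e ▸ rR) le_top).trans PK
    have co := rR.coprime_of_ne sP.pGrp e
    refine (cent_of_comm hCN sP.pGrp.nil rR.nil co hz.1 z1 hy y1 ?_).trans (cent_anti inf_le_left)
    exact mem_centralizer_singleton_iff.2 (nil_comm_of_coprime (hCN x x1) c
      (mem_cent_singleton_comm.1 (cent_le_cent_singleton hz hx))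
      ((co.coprime_dvd_left (orderOf_dvd_card_of_mem hy)).coprime_dvd_right (orderOf_dvd_card_of_mem hz.1)))
  have cK : ∀ x ∈ K, x ≠ 1 → 𝒞[x] ≤ K := fun x hx x1 => le_of_forall_pElt fun r hr y hy ry => by
    by_cases y1 : y = 1
    · exact y1 ▸ one_mem _
    exact key hr (piGrp_zpowers_iff.2 ry) y (mem_zpowers y) y1 x hx x1 hy (mem_zpowers y)
  have hall : IsHallOf K ⊤ := ⟨le_top, Nat.coprime_of_dvd fun r hr h1 h2 => by
    obtain ⟨y, hy, oy⟩ := exists_mem_orderOf_eq hr h1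
    have y1 : y ≠ 1 := fun e => hr.ne_one (by rw [← oy, e, orderOf_one])
    obtain ⟨R, sR, hR⟩ := sylow_superset (Q := zpowers y) hr
      (pGrp_of_card_eq hr (by rw [Nat.card_zpowers, oy])) le_top
    exact sR.not_dvd_index hr (h2.trans (relIndex_dvd_of_le_left _
      (key hr sR.pGrp y (hR (mem_zpowers y)) y1 y hy y1 (mem_cent_singleton_self y))))⟩
  have K1 : K ≠ ⊥ := ne_bot_mono PK P1
  obtain ⟨h1, h2, h3⟩ := fittingHall_spec G
  have KF : K ≤ fittingHall G := le_sSup ⟨normal_of_top_le_norm nK, nilK, isHallOf_top_iff.1 hall⟩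
  obtain ⟨w, hw, w1⟩ := exists_mem_ne_one (meet_center_nil h2 ⟨KF, le_top.trans nK⟩ K1)
  rw [le_antisymm ((mem_cent_iff_le_cent_singleton.1 hw.2.2).trans (cK w hw.1 w1)) KF]
  obtain ⟨E, hE⟩ := exists_complIn_of_coprime ⟨le_top, nK⟩ hall.2
  have reg : Semiregular K E := semiregular_sym fun x hx x1 =>
    eq_bot_iff.2 (hE.inf_eq ▸ le_inf (inf_le_right.trans (cK x hx x1)) inf_le_left)
  refine ⟨E, ⟨hE, K1, ?_, reg⟩, nil_of_regular hCN hE.norm K1 reg⟩
  rintro rfl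
  have := hE.sup_eq
  rw [sup_bot_eq] at this
  exact hnn (Group.nilpotent_of_mulEquiv (_h := this ▸ nilK) topEquiv)

omit hCN in
theorem frobCompl_of_IsFrob {K E : Subgroup G} (h : IsFrob ⊤ K E) : IsFrobeniusComplement E :=
  ⟨h.2.2.1, fun e => h.2.1 (by simpa [e] using h.1.inf_eq), fun _ hg => Frobenius_compl_TI h (mem_top _) hg⟩

section MaxNil
variable {H : Subgroup G} (hH : Group.IsNilpotent H) (hmax : ∀ L : Subgroup G, Group.IsNilpotent L → H ≤ L → L = H)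
include hH hmax

theorem maxNil_sylow {p : ℕ} (hp : p.Prime) (h : p ∣ Nat.card H) : IsSylowOf p (pCoreOf p H) ⊤ := by
  have sP : IsSylowOf p (pCoreOf p H) H := nilpotent_pcore_Hall _ hH
  obtain ⟨S, sS, hS⟩ := sylow_superset hp sP.pGrp le_top
  have dp := nilpotent_pcoreC {p} hH
  have c : piCoreOf {p}ᶜ H ≤ 𝒞(S) := by
    by_cases e : piCoreOf {p}ᶜ H = ⊥
    · exact e ▸ bot_le
    obtain ⟨x, hx, x1⟩ := exists_mem_ne_one (sP.ne_bot' hp h)
    obtain ⟨y, hy, y1⟩ := exists_mem_ne_one e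
    exact cent_of_comm hCN sS.pGrp.nil (nil_of_le hH dp.right_le) (sS.piGrp.coprime (pcore_piGrp _ _)).symm
      (hS hx) x1 hy y1 (cent_le_cent_singleton hx (dp.cent hy))
  have := hmax _ (nil_sup_of_cent sS.pGrp.nil (nil_of_le hH dp.right_le) c)
    (dp.sup_eq.ge.trans (sup_le_sup_right hS _))
  rwa [← sP.eq_of_le sS.pGrp hS (le_sup_left.trans this.le)]

theorem maxNil_hall : (Nat.card H).Coprime H.index := Nat.coprime_of_dvd fun p hp h1 h2 =>
  (maxNil_sylow hCN hH hmax hp h1).not_dvd_index hp (by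
    rw [relIndex_top_right]; exact h2.trans (index_dvd_of_le (pcore_le _ _)))

omit hH in
theorem maxNil_cent {z : G} (z1 : z ≠ 1) (h : H ≤ 𝒞[z]) : 𝒞[z] = H := hmax _ (hCN z z1) h

theorem maxNil_TI (h1 : ¬ IsPrimePow (Nat.card H)) (g : G) (hg : H :^ g ≠ H) : H ⊓ H :^ g = ⊥ := by
  by_contra h
  obtain ⟨p, hp, hd⟩ := exists_prime_dvd_card h
  obtain ⟨x, ⟨hx, hx'⟩, ox⟩ := exists_mem_orderOf_eq hp hd
  have x1 : x ≠ 1 := fun e => hp.ne_one (by rw [← ox, e, orderOf_one])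
  obtain ⟨q, hq, qH, ne⟩ : ∃ q : ℕ, q.Prime ∧ q ∣ Nat.card H ∧ q ≠ p := by
    by_contra! hc
    obtain ⟨k, hk⟩ := (pGrp_iff_card hp).1 (show IsPGrp p H from hc)
    exact h1 ⟨p, k, hp.prime, Nat.pos_of_ne_zero fun e => ne_bot_of_mem hx x1 (card_eq_one.1 (by simpa [e] using hk)),
      hk.symm⟩
  have sQ := maxNil_sylow hCN hH hmax hq qH
  have e0 : pCoreOf q H :^ g = pCoreOf q (H :^ g) := pcore_conjg ..
  have sQ' : IsSylowOf q (pCoreOf q (H :^ g)) ⊤ := e0 ▸ sQ.conjg_of_mem (mem_top g)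
  have c : ∀ L : Subgroup G, Group.IsNilpotent L → x ∈ L → IsSylowOf q (pCoreOf q L) ⊤ →
      pCoreOf q L = pCoreOf q 𝒞[x] := fun L nL hL sL => nilpotent_Hall_pcore (hCN x x1) (sL.of_le (by
    rw [← cent_zpowers]
    exact sub_nilpotent_cent2 nL (pcore_le _ _) (zpowers_le.2 hL) ((pcore_pGrp q L).coprime_of_ne
      (pGrp_of_card_eq hp (by rw [Nat.card_zpowers, ox])) ne)) le_top)
  have e := (c H hH hx sQ).trans (c _ (nil_conjg.2 hH) hx' sQ').symm
  obtain ⟨z, hz, z1⟩ := exists_mem_ne_one (meet_center_nil hH (pcore_normal {q} H)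
    (sQ.ne_bot' hq (qH.trans (card_dvd_of_le le_top))))
  have c2 : H :^ g ≤ 𝒞[z] := by
    have dp := nilpotent_pcoreC {q} (nil_conjg.2 hH : Group.IsNilpotent (H :^ g))
    have hz1 : z ∈ pCoreOf q H := hz.1
    have hz2 : z ∈ pCoreOf q (H :^ g) := e ▸ hz1
    refine dp.sup_eq.ge.trans (sup_le ?_ (dp.cent.trans (cent_le_cent_singleton hz2)))
    exact (e.ge.trans (pcore_le _ _)).trans (mem_cent_iff_le_cent_singleton.1 hz.2.2)
  rw [maxNil_cent hCN hmax z1 (mem_cent_iff_le_cent_singleton.1 hz.2.2)] at c2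
  exact hg (eq_of_le_of_card_ge c2 (by simp))

theorem maxNil_cent_le (ti : ∀ g : G, H :^ g ≠ H → H ⊓ H :^ g = ⊥) {x : G} (hx : x ∈ H) (x1 : x ≠ 1) :
    𝒞[x] ≤ H := le_of_forall_pElt fun r hr y hy ry => by
  by_cases h : r ∣ Nat.card H
  · have nH : 𝒞[x] ≤ 𝒩(H) := fun c hc => conjg_eq_self_iff.1 (by_contra fun ne => x1 (mem_bot.1 (ti c ne ▸
      ⟨hx, mem_conjg'.2 ⟨x, hx, by rw [mem_centralizer_singleton_iff.1 hc, mul_inv_cancel_right]⟩⟩)))
    exact pcore_le {r} H (((maxNil_sylow hCN hH hmax hr h).of_le ((pcore_le _ _).trans le_normalizer)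
      le_top).mem_of_normal (norm_pcore _ le_rfl) ry (nH hy))
  by_cases y1 : y = 1
  · exact y1 ▸ one_mem _
  have ry' : IsPGrp r (zpowers y) := piGrp_zpowers_iff.2 ry
  obtain ⟨z, hz, z1, cz⟩ := exists_center hH (ne_bot_of_mem hx x1)
  exact maxNil_cent hCN hmax z1 cz ▸ cent_le_cent_singleton hz (cent_of_comm hCN hH ry'.nil
    (ry'.coprime_of_not_dvd h) hx x1 (mem_zpowers y) y1 hy (mem_zpowers y))

end MaxNil

omit hCN in
theorem two_primes [Group.IsSolvable G] (h : ∀ g : G, IsPrimePow (orderOf g) ∨ g = 1) :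
    (Nat.card G).primeFactors.card ≤ 2 := by
  have cp : ∀ x : G, (orderOf x).Prime → IsPGrp (orderOf x) 𝒞[x] := fun x px r hr hd => by
    obtain ⟨y, hy, rfl⟩ := exists_mem_orderOf_eq hr hd
    by_contra ne
    have e := (show Commute y x from mem_centralizer_singleton_iff.1 hy).orderOf_mul_eq_mul_orderOf_of_coprime
      ((Nat.coprime_primes hr px).2 ne)
    rcases h (y * x) with h1 | h1
    · obtain ⟨q, -, hq⟩ := isPrimePow_iff_unique_prime_dvd.1 h1
      exact ne ((hq _ ⟨hr, e ▸ dvd_mul_right _ _⟩).trans (hq _ ⟨px, e ▸ dvd_mul_left _ _⟩).symm)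
    · rw [h1, orderOf_one] at e
      exact px.ne_one (Nat.eq_one_of_mul_eq_one_left e.symm)
  have hCN : IsCNGroup G := fun g g1 => by
    obtain ⟨a, ha, pa⟩ := exists_prime_orderOf_mem_zpowers g1
    exact nil_of_le (cp a pa).nil (cent_singleton_le_of_mem_zpowers ha)
  by_cases G1 : (⊤ : Subgroup G) = ⊥
  · have := card_eq_one.2 G1
    rw [card_top] at this
    simp [this]
  obtain ⟨p, hp, N1⟩ := exists_pcore_ne_bot (inferInstance : Group.IsSolvable (⊤ : Subgroup G)) G1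
  obtain ⟨L, hL⟩ := Hall_exists {p}ᶜ (inferInstance : Group.IsSolvable (⊤ : Subgroup G))
  have nL := nil_of_regular hCN (le_top.trans (pcore_norm {p} ⊤)) N1 (E := L) fun a ha a1 => by
    by_contra ne
    have pN : IsPGrp p (pCoreOf p ⊤ ⊓ 𝒞[a]) := (pcore_pGrp p ⊤).inf_left _
    obtain ⟨x, hx, rfl⟩ := pN.exists_orderOf_eq ne
    exact a1 (((cp x hp).piElt (mem_cent_singleton_comm.1 hx.2)).eq_one (hL.piGrp.piElt ha))
  obtain ⟨q, hq⟩ : ∃ q, IsPGrp q L := by
    by_cases L1 : L = ⊥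
    · exact ⟨p, L1 ▸ piGrp_bot _⟩
    obtain ⟨z, -, z1, cz⟩ := exists_center nL L1
    obtain ⟨a, ha, pa⟩ := exists_prime_orderOf_mem_zpowers z1
    exact ⟨_, (cp a pa).of_le (cz.trans (cent_singleton_le_of_mem_zpowers ha))⟩
  refine (Finset.card_le_card (t := {p, q}) fun r hr => ?_).trans Finset.card_le_two
  have hr' := Nat.prime_of_mem_primeFactors hr
  by_cases e : r = p
  · simp [e]
  have : r = q := hq r hr' ((hL.dvd_card_iff hr' e).2 (by rw [card_top]; exact Nat.dvd_of_mem_primeFactors hr))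
  simp [this]

omit hCN in
theorem odd_part_cyclic {K E : Subgroup G} (nK : E ≤ 𝒩(K)) (K1 : K ≠ ⊥) (reg : Semiregular K E)
    (nE : Group.IsNilpotent E) : Odd (Nat.card (piCoreOf {2}ᶜ E)) ∧ IsCyclic (piCoreOf {2}ᶜ E) := by
  have od : Odd (Nat.card (piCoreOf {2}ᶜ E)) := Nat.not_even_iff_odd.1 fun h =>
    (piGrp_compl_singleton_iff Nat.prime_two).1 (pcore_piGrp _ E) h.two_dvd
  exact ⟨od, nil_Zgroup_cyclic (odd_regular_Zgroup od K1 ((pcore_le _ _).trans nK)
    (semiregularS reg le_rfl (pcore_le _ _))) (nil_of_le nE (pcore_le _ _))⟩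

omit hCN in
theorem nil_compl_struct {K E : Subgroup G} (nK : E ≤ 𝒩(K)) (K1 : K ≠ ⊥) (reg : Semiregular K E)
    (nE : Group.IsNilpotent E) : IsCyclic E ∨ ∃ C Q : Subgroup G, C ⊔ Q = E ∧ (∀ a ∈ C, ∀ b ∈ Q, a * b = b * a) ∧
      IsCyclic C ∧ Odd (Nat.card C) ∧ ∃ n : ℕ, Nonempty (↥Q ≃* QuaternionGroup (2 ^ n)) := by
  obtain ⟨od, cy⟩ := odd_part_cyclic nK K1 reg nE
  have dp := nilpotent_pcoreC {2} nE
  rcases TG.cyclic_or_quaternion ((pcore_pGrp 2 E).isPGroup Nat.prime_two) (fun A hA => by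
    have s : A.map (pCoreOf 2 E).subtype ≤ E := (map_subtype_le A).trans (pcore_le _ _)
    exact (cyclic_map_iff_of_inj (subtype_injective _)).1 (abelian_regular_cyclic
      (abelian_map _ hA) K1 (s.trans nK) (semiregularS reg le_rfl s))) with h | h
  · exact Or.inl (abelian_regular_cyclic (dp.sup_eq ▸ abelian_sup (abelian_of_cyclic h) (abelian_of_cyclic cy)
      dp.symm.cent) K1 nK reg)
  · exact Or.inr ⟨_, _, dp.symm.sup_eq, le_cent_iff_forall.1 dp.cent, cy, od, h⟩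

theorem threeStep [Group.IsSolvable G] (G1 : (⊤ : Subgroup G) ≠ ⊥)
    (hno : ∀ p : ℕ, p.Prime → ∀ P : Subgroup G, IsSylowOf p P ⊤ → P ≠ ⊥ → ¬ ⊤ ≤ 𝒩(P)) :
    ∃ p : ℕ, p.Prime ∧ IsThreeStepGroup p G := by
  have sol : ∀ H : Subgroup G, Group.IsSolvable H := fun H => inferInstance
  obtain ⟨p, hp, N1⟩ := exists_pcore_ne_bot (sol ⊤) G1
  refine ⟨p, hp, ?_⟩
  unfold IsThreeStepGroup
  rw [pCore_eq_top hp]
  set N := pCoreOf p (⊤ : Subgroup G) with hN
  have pN : IsPGrp p N := pcore_pGrp _ _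
  have nN : ∀ X : Subgroup G, X ≤ 𝒩(N) := fun X => le_top.trans (pcore_norm _ _)
  have := normal_of_top_le_norm (nN ⊤)
  have notS : ¬ IsSylowOf p N ⊤ := fun h => hno p hp N h N1 (nN ⊤)
  have O1 : pPrimeCoreOf p (⊤ : Subgroup G) = ⊥ := by
    by_contra ne
    obtain ⟨q, hq, Q1⟩ := exists_pcore_ne_bot (sol _) ne
    have nQ := (pcore_normal {p}ᶜ (⊤ : Subgroup G)).pcore {q}
    have qQ := pcore_pGrp q (pPrimeCoreOf p (⊤ : Subgroup G))
    have p'Q : IsPiGrp {p}ᶜ (pCoreOf q (pPrimeCoreOf p (⊤ : Subgroup G))) :=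
      (pcore_piGrp _ _).of_le (pcore_le _ _)
    obtain ⟨P, sP, hP⟩ := sylow_superset hp pN le_top
    obtain ⟨x, hx, x1⟩ := exists_mem_ne_one N1
    obtain ⟨y, hy, y1⟩ := exists_mem_ne_one Q1
    have c := le_cent_symm (cent_of_comm hCN sP.pGrp.nil qQ.nil (sP.piGrp.coprime p'Q).symm (hP hx) x1 hy y1
      (mem_cent_singleton_comm.1 (cent_le_cent_singleton (pcore_le _ _ hy) (pcore_cent_compl {p} ⊤ hx))))
    have e := nilpotent_Hall_pcore (nil_of_le (hCN y y1) (cent_le_cent_singleton hy)) (sP.of_le c le_top)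
    exact hno p hp P sP (ne_bot_mono hP N1) (e ▸ norm_pcore _ (norm_cent nQ.2))
  have cN : 𝒞(N) ≤ N := (le_inf le_top le_rfl).trans (cent_sub_pcore (sol ⊤) O1)
  have key : ∀ x, IsPiElt {p} x → ∀ a, IsPiElt {p}ᶜ a → a ≠ 1 → x * a * x⁻¹ * a⁻¹ ∈ N → x ∈ N :=
    fun x px a pa a1 h => by
    by_contra xN
    have pH : IsPGrp p (N ⊔ zpowers x) := IsPiGrp.sup pN (piGrp_zpowers_iff.2 px) (Or.inr (nN _))
    have c : Commute (QuotientGroup.mk' N a) (QuotientGroup.mk' N x) := by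
      have := (QuotientGroup.eq_one_iff _).2 h
      rw [← QuotientGroup.mk'_apply, map_mul, map_mul, map_mul, map_inv, map_inv, mul_inv_eq_one,
        mul_inv_eq_iff_eq_mul] at this
      exact this.symm
    refine a1 ((pN.piElt (cN (cent_anti le_sup_left (cent_of_comm_mod hCN pH.nil (nil_of_cyclic inferInstance)
      (pH.coprime (piGrp_zpowers_iff.2 pa)).symm le_sup_left (nN _) (ne_bot_of_mem (mem_zpowers a) a1)
      (mem_sup_right (mem_zpowers x)) xN ?_ (mem_zpowers a))))).eq_one pa)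
    rintro _ ⟨k, rfl⟩
    rw [← QuotientGroup.eq_one_iff, ← QuotientGroup.mk'_apply]
    simp only [map_mul, map_inv, map_zpow, (c.zpow_left k).eq]
    group
  obtain ⟨H, hH⟩ := Hall_exists {p}ᶜ (sol ⊤)
  have reg : Semiregular N H := fun a ha a1 => by
    by_contra ne
    obtain ⟨x, hx, x1⟩ := exists_mem_ne_one ne
    have pa := hH.piGrp.piElt ha
    exact a1 ((pN.piElt (cN (cent_of_comm hCN pN.nil (nil_of_cyclic inferInstance)
      (pN.coprime (piGrp_zpowers_iff.2 pa)).symm hx.1 x1 (mem_zpowers a) a1 (mem_cent_singleton_comm.1 hx.2)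
      (mem_zpowers a)))).eq_one pa)
  have nilH := nil_of_regular hCN (nN H) N1 reg
  set L := piCore2Of {p} {p}ᶜ (⊤ : Subgroup G) with hL
  have nL : L ⊲ ⊤ := pcore2_normal _ _ _
  have hA := hH.inf_normal nL
  have eL : N ⊔ H ⊓ L = L := pcore_sup_eq_pcore2 hA
  have A1 : H ⊓ L ≠ ⊥ := fun e => by
    rw [e, sup_bot_eq] at eL
    by_cases h1 : (⊤ : Subgroup G) /ₛ N = ⊥
    · exact notS (pHall_refl pN |>.trans_index le_top (by
        rw [← card_quot (nN ⊤), h1, card_bot]; exact PiNat.one _))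
    obtain ⟨q, hq, Q1⟩ := exists_pcore_ne_bot (inferInstance : Group.IsSolvable ((⊤ : Subgroup G) /ₛ N)) h1
    by_cases e : q = p
    · exact Q1 (e ▸ pcore_quot_pcore {p} ⊤)
    refine Q1 (eq_bot_iff.2 ((pcore_mono_pi (ρ := {p}ᶜ) (by simpa using Ne.symm e) _).trans ?_))
    rw [← pcore2_quot, ← hL, ← eL, quot_self]
  have fr : N ⊔ 𝒩(H ⊓ L) = ⊤ := by
    have := Hall_Frattini_arg (sol L) nL hA
    rw [top_inf_eq, ← eL, sup_assoc, eL, sup_eq_right.2 le_normalizer] at this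
    exact this
  have od : Odd (Nat.card (H ⊓ L : Subgroup G)) := Nat.not_even_iff_odd.1 fun ev => by
    obtain ⟨t, ht, ot⟩ := exists_mem_orderOf_eq Nat.prime_two ev.two_dvd
    obtain ⟨P, sP, hP⟩ := sylow_superset hp pN le_top
    refine notS (le_antisymm hP (fun x hx => key x (sP.piGrp.piElt hx) t (hA.piGrp.piElt ht)
      (fun e => by simp [e] at ot) ?_) ▸ sP)
    obtain ⟨n, hn, b, hb, rfl⟩ := (mem_sup_of_right_le_norm (nN _)).1 (fr.ge (mem_top x))
    have := conj_mem_of_mem_norm hb ht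
    have e := unique_invol (nN H) N1 reg this.1 ht.1 (by rw [orderOf_conj, ot]) ot
    rw [show n * b * t * (n * b)⁻¹ * t⁻¹ = n * (b * t * b⁻¹ * n⁻¹ * t⁻¹) by group, e]
    exact mul_mem hn (conj_mem_of_le_norm (nN _) (mem_top t) (inv_mem hn))
  obtain ⟨-, cy⟩ := odd_part_cyclic (nN H) N1 reg nilH
  have sA : H ⊓ L ≤ piCoreOf {2}ᶜ H := nilpotent_le_pcore nilH inf_le_left
    ((piGrp_compl_singleton_iff Nat.prime_two).2 fun h => Nat.not_even_iff_odd.2 od (even_iff_two_dvd.2 h))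
  have cA : H ≤ 𝒞(H ⊓ L) := (nilpotent_pcoreC {2} nilH).sup_eq.ge.trans (sup_le
    ((pcore_cent_compl _ _).trans (cent_anti sA)) ((abelian_iff_le_cent.1 (abelian_of_cyclic cy)).trans (cent_anti sA)))
  have p'C : IsPiGrp {p}ᶜ 𝒞(H ⊓ L) := (piGrp_compl_singleton_iff hp).2 fun hd => by
    obtain ⟨x, hx, ox⟩ := exists_mem_orderOf_eq hp hd
    obtain ⟨a, ha, a1⟩ := exists_mem_ne_one A1
    have c := cent_le_cent_singleton ha hx
    have := key x (by rw [IsPiElt, ox]; exact piNat_singleton_self hp) a (hA.piGrp.piElt ha) a1 (by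
      rw [mem_centralizer_singleton_iff.1 c]; simp)
    exact hp.ne_one (by rw [← ox, mem_bot.1 (reg a ha.1 a1 ▸ ⟨this, c⟩ : x ∈ (⊥ : Subgroup G)), orderOf_one])
  have HL : H ≤ L := (cA.trans le_sup_right).trans (pcore2_max (K := N ⊔ 𝒞(H ⊓ L)) ⟨le_top, fr.ge.trans
    (sup_le (norm_of_le le_sup_left) (norm_sup (nN _) (norm_cent le_rfl)))⟩ (by
      exact (relIndex_sup_of_right_le_norm (nN 𝒞(H ⊓ L))).symm ▸ p'C.relIndex N))
  have iL : PiNat {p} (L.relIndex ⊤) := piNat_compl_compl.1 (piNat_relIndex_of_le_left HL hH.index)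
  refine ⟨N1, H ⊓ L, A1, cyclic_of_le cy sA, od, (piNat_compl_singleton_iff_coprime hp).1 hA.piGrp, ?_⟩
  rw [eL]
  refine ⟨normal_of_top_le_norm nL.2, fun e => notS (e ▸ pcore_pHall_pcore2 {p} ⊤ le_rfl),
    (piNat_singleton_iff hp (index_pos L).ne').1 (by rwa [relIndex_top_right] at iL),
    fun a ha a1 => reg a ha.1 a1, fun x xL a ha a1 h => xL ?_⟩
  obtain ⟨y, z, hy, -, py, pz, e, -⟩ := exists_piPart {p} x
  refine e ▸ mul_mem (eL.le (mem_sup_left (key y py a (hA.piGrp.piElt ha) a1 ?_)))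
    (mem_of_coprime_relIndex (mem_top z) nL.2 (PiNat.coprime' pz iL))
  have c : Commute (QuotientGroup.mk' N x) (QuotientGroup.mk' N a) := by
    have := (QuotientGroup.eq_one_iff _).2 h
    rwa [← QuotientGroup.mk'_apply, map_mul, map_mul, map_mul, map_inv, map_inv, mul_inv_eq_one,
      mul_inv_eq_iff_eq_mul] at this
  obtain ⟨k, rfl⟩ := hy
  rw [← QuotientGroup.eq_one_iff, ← QuotientGroup.mk'_apply]
  simp only [map_mul, map_inv, map_zpow, (c.zpow_left k).eq]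
  group

end CA.CN
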